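import Cfsg.Agent.H63.AnDefs2

/-! Project AN, piece P4E: the normal form of a twist of type four. -/

set_option autoImplicit false

namespace Cfsg.Agent.H4.AnP4e

open Cfsg Cfsg.Agent.H63 Cfsg.Agent.H63.AN Subgroup
open Cfsg.Agent.H78
open Equiv (swap Perm)
open Equiv.Perm (sign)
open scoped commutatorElement

variable {α : Type} [Fintype α] [DecidableEq α]

omit [Fintype α] [DecidableEq α] in
theorem inb_z {z q : Perm α} (hz : z * z = 1) (h : ∀ e, q e = e ∨ q e = z e) (e : α) :
    q (z e) = z (q e) := by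
  have zz : ∀ e, z (z e) = e := fun e => DFunLike.congr_fun hz e
  rcases h e with a | a <;> rcases h (z e) with b | b
  · rw [a, b]
  · rw [zz] at b
    rw [q.injective (b.trans a.symm), a, q.injective (b.trans a.symm)]
  · rw [q.injective (b.trans a.symm), a, q.injective (b.trans a.symm), q.injective (b.trans a.symm)]
  · rw [a, b]

omit [Fintype α] [DecidableEq α] in
theorem inb_comm {z p q : Perm α} (hz : z * z = 1) (hp : ∀ e, p e = e ∨ p e = z e)
    (hq : ∀ e, q e = e ∨ q e = z e) : Commute p q := Equiv.ext fun e => by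
  change p (q e) = q (p e)
  rcases hp e with a | a <;> rcases hq e with b | b
  · rw [a, b, a]
  · rw [a, b, inb_z hz hp, a]
  · rw [a, b, inb_z hz hq, b, a]
  · rw [a, b, inb_z hz hq, inb_z hz hp, a, b]

theorem pp_ca {z q : Perm α} (hz : z * z = 1) (h : q ∈ PP z) : q ∈ CA z :=
  mem_CA.2 ⟨Equiv.ext fun e => inb_z hz h.2 e, h.1⟩

theorem pp_sq {z q : Perm α} (hz : z * z = 1) (h : q ∈ PP z) : q * q = 1 := Equiv.ext fun e => by
  change q (q e) = e
  rcases h.2 e with a | a
  · rw [a, a]
  · rw [a, inb_z hz h.2, a]; exact DFunLike.congr_fun hz e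

theorem pp_sym {z q : Perm α} (h : ∀ e, q e = e ∨ q e = z e) : q ∈ symOn z.support :=
  fun e he => (h e).elim id fun a => a.trans (Equiv.Perm.notMem_support.1 he)

theorem pp_conj {z q a : Perm α} (ha : Commute a z) (h : q ∈ PP z) : a * q * a⁻¹ ∈ PP z := by
  refine ⟨by simp [h.1], fun e => ?_⟩
  obtain ⟨e, rfl⟩ := a.surjective e
  have : a (z e) = z (a e) := DFunLike.congr_fun ha.eq e
  simpa [← this] using h.2 e

theorem like {z : Perm α} {φ φ' : Perm α → Perm α} {T : ℕ → Prop} (t : Tw1 z z φ φ' T)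
    (id : ∀ q ∈ PP z, φ q = q) {a : Perm α} (ha : a ∈ CA z) : Like z a (φ a) :=
  ⟨t.cm a ha, fun q hq => by
    have h1 := pp_conj (mem_CA.1 ha).1 hq
    have := t.mul _ (pp_ca t.p2 h1) a ha
    rw [inv_mul_cancel_right, t.mul a ha q (pp_ca t.p2 hq), id q hq, id _ h1] at this
    rw [this, mul_inv_cancel_right]⟩

theorem Like.cj {z a b g : Perm α} (ha : Commute a z) (h : Like z a b) (hg : Like z 1 g) :
    Like z a (g * b * g⁻¹) :=
  ⟨(hg.1.mul_left h.1).mul_left hg.1.inv_left, fun q hq => by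
    have e1 := hg.2 q hq
    have e2 := hg.2 _ (pp_conj ha hq)
    rw [one_mul, inv_one, mul_one] at e1 e2
    rw [← e2, ← h.2 q hq]
    conv_lhs => rw [← e1]
    group⟩

theorem em_inb (x : Fin 10 ↪ α) {u : Perm (Fin 10)} (h : ∀ i, u i = i ∨ u i = zz i) (e : α) :
    em x u e = e ∨ em x u e = em x zz e := by
  by_cases h' : ∃ k, x k = e
  · obtain ⟨k, rfl⟩ := h'
    rw [em_apply, em_apply]
    exact (h k).imp (congrArg x) (congrArg x)
  · push Not at h'
    exact Or.inl (em_of_not x _ h')

theorem em_sym (x : Fin 10 ↪ α) {u : Perm (Fin 10)} (h : u.support ⊆ zz.support) :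
    em x u ∈ symOn (em x zz).support := by
  rw [mem_symOn_iff_support, support_em, support_em]
  exact Finset.map_subset_map.2 h

theorem em_ca (x : Fin 10 ↪ α) {u : Perm (Fin 10)} (h : u * zz = zz * u) (s : sign u = 1) :
    em x u ∈ CA (em x zz) := mem_CA.2 ⟨Commute.map h _, (sign_em x u).trans s⟩

theorem cm {X : Finset α} {σ τ : Perm α} (hσ : σ ∈ symOn X) (hτ : τ ∈ symOn Xᶜ) : Commute σ τ :=
  commute_of_mem_symOn disjoint_compl_right hσ hτ

theorem sq_of (x : Fin 10 ↪ α) {u : Perm (Fin 10)} {σ : Perm α} (h : u.support ⊆ zz.support)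
    (uu : u * u = 1) (hσ : σ ∈ symOn (em x zz).supportᶜ) (e : em x u * σ * (em x u * σ) = 1) :
    σ * σ = 1 := by
  rwa [(cm (em_sym x h) hσ).symm.mul_mul_mul_comm, ← map_mul, uu, map_one, one_mul] at e

theorem p4e (kp : KpStmt) (d : P4dStmt) : P4eStmt := by
  intro α _ _ x φ φ' T ⟨⟨t1, t2⟩, id, y8, n4⟩
  have c10 : 10 ≤ Fintype.card α := by simpa using Fintype.card_le_of_embedding x
  obtain ⟨da, db⟩ := d α x
  have id' : ∀ q ∈ PP (em x zz), φ' q = q := fun q hq => by
    have := t1.inv q ((kp α (by omega)).2 _ t1.p2 t1.pe q hq) (pp_sq t1.p2 hq)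
    rwa [id q hq] at this
  have φ1 : φ 1 = 1 := id 1 ⟨map_one _, fun _ => Or.inl rfl⟩
  have m12 := em_ca x (u := s12) (by decide) (by decide)
  have m23 := em_ca x (u := s23) (by decide) (by decide)
  have m34 := em_ca x (u := s34) (by decide) (by decide)
  have my := em_ca x (u := yy) (by decide) (by decide)
  have sq : ∀ {u : Perm (Fin 10)}, em x u ∈ CA (em x zz) → u * u = 1 →
      φ (em x u) * φ (em x u) = 1 := fun m e => by rw [← t1.mul _ m _ m, ← map_mul, e, map_one, φ1]
  have com : ∀ {u v : Perm (Fin 10)}, em x u ∈ CA (em x zz) → em x v ∈ CA (em x zz) →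
      u * v = v * u → Commute (φ (em x u)) (φ (em x v)) := fun m m' e => by
    rw [Commute, SemiconjBy, ← t1.mul _ m _ m', ← t1.mul _ m' _ m, ← map_mul, ← map_mul, e]
  have cl : ∀ {u : Perm (Fin 10)}, em x u ∈ CA (em x zz) → u * u = 1 → (zz * u).support.card = 8 →
      sign (φ (em x u)) = 1 → φ' (φ (em x u)) = em x u ∧ (φ (em x u)).support.card ≠ 4 := by
    intro u m e c s
    have := t1.cl _ m (by rw [← map_mul, e, map_one]) s
    rw [← map_mul, card_em, c] at this
    exact this.elim (fun h => ⟨h.1, fun c' => n4 (c' ▸ h.2.1 y8)⟩) fun h => absurd y8 h.2.1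
  have a1 : ∀ ε δ : Bool, (s12 * pw ε ww * pw δ vv).support ⊆ zz.support := by decide
  have a3 : ∀ ε δ : Bool, s12 * pw ε ww * pw δ vv * (s12 * pw ε ww * pw δ vv) = 1 ∧
      sign (s12 * pw ε ww * pw δ vv) = 1 ∧ sign (pw ε ww * pw δ vv) = 1 ∧
      (∀ i, (pw ε ww * pw δ vv) i = i ∨ (pw ε ww * pw δ vv) i = zz i) ∧
      ((s12 * pw ε ww * pw δ vv).support.card ≠ 4 → δ = true) := by decide
  have a2 : ∀ i : Bool, (t4 * pw i zz).support ⊆ zz.support ∧
      t4 * pw i zz * (t4 * pw i zz) = 1 ∧ sign (t4 * pw i zz) * -1 = 1 ∧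
      ((t4 * pw i zz).support.card + 2 ≠ 4 → i = true) := by decide
  refine ⟨fun a ha => like t1 id ha, ?_, ?_⟩
  · obtain ⟨ε, δ, σ, hσ, e⟩ := da _ _ (like t1 id m12) (sq m12 (by decide)) (like t1 id m34)
      (com m12 m34 (by decide))
    refine ⟨ε, δ, σ, hσ, e, fun c11 => ?_, fun s1 => ?_⟩
    · have ss := sq_of x (a1 ε δ) (a3 ε δ).1 hσ (e ▸ sq m12 (by decide))
      have key : ∀ c ∈ altOn (em x zz).supportᶜ, c * σ * c⁻¹ = σ := fun c hc => by
        have cz : ∀ q ∈ symOn (em x zz).support, Commute q c := fun q hq => cm hq hc.1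
        have mc : c ∈ CA (em x zz) := mem_CA.2 ⟨(cz _ (em_sym x subset_rfl)).symm, hc.2⟩
        have l := like t2 id' mc
        have l1 : Like (em x zz) 1 (φ' c) := ⟨l.1, fun q hq => by
          rw [l.2 q hq, ← (cz q (pp_sym hq.2)).eq, mul_inv_cancel_right]; simp⟩
        have cp := t1.cp _ m12 c mc
        generalize φ' c = g at l1 cp
        obtain ⟨ε', δ', σ', hσ', e'⟩ := da (g * em x s12 * g⁻¹) (g * em x s34 * g⁻¹)
          (Like.cj (mem_CA.1 m12).1 ⟨(mem_CA.1 m12).1, fun _ _ => rfl⟩ l1)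
          (by rw [conj_mul, ← map_mul, show s12 * s12 = 1 by decide]; simp)
          (Like.cj (mem_CA.1 m34).1 ⟨(mem_CA.1 m34).1, fun _ _ => rfl⟩ l1)
          ((Commute.map (show s12 * s34 = s34 * s12 by decide) (em x)).map (MulAut.conj g))
        have s1 : σ' = 1 := Equiv.ext fun y => by
          by_cases hy : y ∈ (em x zz).support
          · exact hσ' y (by simpa using hy)
          · have h1 : σ' ∈ symOn (em x zz).support := by
              rw [← inv_mul_eq_iff_eq_mul] at e'
              refine e' ▸ mul_mem (inv_mem (em_sym x (a1 ε' δ'))) fun y hy => ?_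
              obtain ⟨y, rfl⟩ := g.surjective y
              have : g (em x zz y) = em x zz (g y) := DFunLike.congr_fun l1.1.eq y
              rw [Equiv.Perm.notMem_support, ← this, g.injective.eq_iff,
                ← Equiv.Perm.notMem_support] at hy
              simpa using em_sym x (u := s12) (by decide) y hy
            exact h1 y hy
        have hq : em x (pw ε' ww * pw δ' vv) ∈ PP (em x zz) :=
          ⟨(sign_em x _).trans (a3 ε' δ').2.2.1, em_inb x (a3 ε' δ').2.2.2.1⟩
        rw [e', s1, mul_one, mul_assoc s12, map_mul, t1.mul _ m12 _ (pp_ca t1.p2 hq), id _ hq, e,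
          ← mul_assoc c, ← (cz _ (em_sym x (a1 ε δ))).eq, mul_assoc _ σ, mul_assoc _ c, mul_assoc _ (c * σ),
          mul_right_inj] at cp
        refine Equiv.ext fun y => ?_
        by_cases hy : y ∈ (em x zz).support
        · have hy' : y ∉ (em x zz).supportᶜ := by simpa using hy
          rw [hσ y hy', (symOn _).mul_mem ((symOn _).mul_mem hc.1 hσ) ((symOn _).inv_mem hc.1) y hy']
        · rw [← cp, Equiv.Perm.mul_apply, pp_sym hq.2 y hy]
      by_contra ne
      obtain ⟨a, ha⟩ : ∃ a, σ a ≠ a := not_forall.1 fun h => ne (Equiv.ext h)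
      have aF : a ∈ (em x zz).supportᶜ := by_contra fun h => ha (hσ a h)
      have bF := symOn_apply_mem hσ aF
      obtain ⟨f, fF, hf⟩ := Finset.exists_mem_notMem_of_card_lt_card
        (s := {a, σ a}) (t := (em x zz).supportᶜ) (Finset.card_le_two.trans_lt (by
          rw [Finset.card_compl, card_em, show zz.support.card = 8 by decide]; omega))
      simp only [Finset.mem_insert, Finset.mem_singleton, not_or] at hf
      have := DFunLike.congr_fun (mul_inv_eq_iff_eq_mul.1
        (key _ (c3_mem_altOn aF bF fF ha.symm (Ne.symm hf.2)))) a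
      rw [Equiv.Perm.mul_apply, Equiv.Perm.mul_apply, c3_apply_snd (Ne.symm hf.1) (Ne.symm hf.2),
        c3_apply_fst ha.symm (Ne.symm hf.1)] at this
      exact hf.1 (this.trans (DFunLike.congr_fun ss a))
    · rw [s1, mul_one] at e
      obtain ⟨h1, h2⟩ := cl m12 (by decide) (by decide)
        (by rw [e, sign_em, (a3 ε δ).2.1])
      rw [e, card_em] at h2
      exact ⟨(a3 ε δ).2.2.2.2 h2, h1⟩
  · have ly : Like (em x zz) 1 (φ (em x yy)) := ⟨(like t1 id my).1, fun q hq => by
      have c1 : Commute (em x t4) q := inb_comm t1.p2 (em_inb x (by decide)) hq.2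
      have c2 : Commute (em x s0) q := (cm (pp_sym hq.2) (by
        rw [mem_symOn_iff_support, support_em, support_em]
        exact Finset.subset_compl_iff_disjoint_right.2
          ((Finset.disjoint_map _).2 (by decide)))).symm
      rw [(like t1 id my).2 q hq, yy, map_mul, (c1.mul_left c2).eq, mul_inv_cancel_right]
      simp⟩
    obtain ⟨r, i, σ, hσ, e, hr⟩ := db _ _ _ _ ly (like t1 id m12) (like t1 id m23) (like t1 id m34)
      (com my m12 (by decide)) (com my m23 (by decide))
    have hv : em x vv ∈ PP (em x zz) := ⟨(sign_em x _).trans (by decide), em_inb x (by decide)⟩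
    have e1 : ⁅φ (em x yy), φ (em x s34)⁆ = em x vv := by
      rw [commutatorElement_def, mul_inv_eq_iff_eq_mul, mul_inv_eq_iff_eq_mul, ← id _ hv,
        ← t1.mul _ my _ m34, ← t1.mul _ (pp_ca t1.p2 hv) _ m34,
        ← t1.mul _ (mul_mem (pp_ca t1.p2 hv) m34) _ my, ← map_mul, ← map_mul, ← map_mul,
        show yy * s34 = vv * s34 * yy by decide]
    have r1 : r = true := hr.2 fun h => by
      have := (e1 ▸ h) (x 4) (by
        rw [Finset.notMem_compl, support_em]; exact Finset.mem_map_of_mem _ (by decide))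
      rw [em_apply] at this
      exact absurd (x.injective this) (by decide)
    subst r1
    change _ = em x (t4 * pw i zz) * σ at e
    refine ⟨i, σ, hσ, sq_of x (a2 i).1 (a2 i).2.1 hσ (e ▸ sq my (by decide)), e, fun sw => ?_⟩
    obtain ⟨h1, h2⟩ := cl my (by decide) (by decide) (by
      rw [e, map_mul, sign_em, sw.sign_eq, (a2 i).2.2.1])
    rw [e, Equiv.Perm.Disjoint.card_support_mul fun y =>
      (by_cases (fun hy : y ∈ (em x zz).support => Or.inr (hσ y (by simpa using hy)))
        fun hy => Or.inl (em_sym x (a2 i).1 y hy)), card_em,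
      Equiv.Perm.card_support_eq_two.2 sw] at h2
    exact ⟨(a2 i).2.2.2 h2, h1⟩

end Cfsg.Agent.H4.AnP4e
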