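import Mathlib
import Cfsg.Agent.H4.PLength

/-! Lifting `p'`-subgroups over a normal `p`-subgroup; rank one quadratic elements. -/

set_option autoImplicit false

namespace Cfsg.Agent.H4

open Subgroup
open scoped Pointwise

variable {p : ℕ} {G : Type*} [Group G]

theorem exists_coprime_lift [Finite G] {A : Type*} [Group A] {f : G →* A}
    (hf : Function.Surjective f) {L : Subgroup A} (h : (Nat.card f.ker).Coprime (Nat.card L)) :
    ∃ L' : Subgroup G, L'.map f = L ∧ Nat.card L' = Nat.card L := by
  have hle : f.ker ≤ L.comap f := ker_le_comap _ _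
  have hc : Nat.card (f.ker.subgroupOf (L.comap f)) = Nat.card f.ker :=
    Nat.card_congr (subgroupOfEquivOfLe hle).toEquiv
  have hi : (f.ker.subgroupOf (L.comap f)).index = Nat.card L := by
    have h1 := (f.ker.subgroupOf (L.comap f)).card_mul_index
    rw [hc, H3.card_comap_of_surjective hf] at h1
    exact Nat.eq_of_mul_eq_mul_left Nat.card_pos h1
  obtain ⟨H, hH⟩ := exists_right_complement'_of_coprime (N := f.ker.subgroupOf (L.comap f))
    (by rw [hc, hi]; exact h)
  refine ⟨H.map (L.comap f).subtype, ?_, by rw [H3.card_map_subtype, ← hi, hH.symm.index_eq_card]⟩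
  have h1 := congrArg (fun K => (K.map (L.comap f).subtype).map f) hH.sup_eq_top
  simp only [Subgroup.map_sup] at h1
  rw [subgroupOf_map_subtype, inf_eq_left.2 hle, (Subgroup.map_eq_bot_iff _).2 le_rfl, bot_sup_eq,
    ← MonoidHom.range_eq_map, range_subtype, map_comap_eq_self_of_surjective hf] at h1
  exact h1

theorem exists_mul_mem_normalizer [Finite G] {A : Type*} [Group A] {f : G →* A} {L : Subgroup G}
    (h : (Nat.card L).Coprime (Nat.card f.ker))
    (hs : Group.IsSolvable L ∨ Group.IsSolvable f.ker) {a : G}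
    (ha : f a ∈ normalizer ((L.map f : Subgroup A) : Set A)) :
    ∃ v ∈ f.ker, v * a ∈ normalizer (L : Set G) := by
  obtain ⟨k, hk, he⟩ := exists_conj_eq_of_le_sup (A := L) (K := f.ker) (B := MulAut.conj a • L)
    (by rw [normalizer_eq_top]; exact le_top) h hs (by
      rw [sup_comm, ← comap_map_eq, ← map_le_iff_le_comap, H2.map_conj_smul,
        mem_normalizer_iff_conj_smul.1 ha]) (H2.card_conj_smul L a)
  refine ⟨k⁻¹, inv_mem hk, mem_normalizer_iff_conj_smul.2 ?_⟩
  rw [← H2.conj_smul_conj_smul, ← he, H2.conj_smul_conj_smul, inv_mul_cancel, map_one, one_smul]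

theorem exists_pow_not_mem {V : Subgroup G} {g : G} {k : ℕ}
    (hg : g ^ p ^ k = 1) (h : g ∉ V) : ∃ j, g ^ p ^ j ∉ V ∧ g ^ p ^ (j + 1) ∈ V := by
  by_contra hc
  push Not at hc
  have : ∀ j, g ^ p ^ j ∉ V := fun j => by
    induction j with
    | zero => simpa using h
    | succ j ih => exact hc j ih
  exact this k (hg ▸ one_mem V)

/-- The product of two transvections over `𝔽₂` has order dividing twelve. -/
theorem pow_twelve_of_transvections {R : Type*} [Ring R] (h2 : (2 : R) = 0) {a b : R}
    (ha : a * a = 0) (hb : b * b = 0) (hab : a * b * a = a ∨ a * b * a = 0)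
    (hba : b * a * b = b ∨ b * a * b = 0) : ((1 + a) * (1 + b)) ^ 12 = 1 := by
  have h2' : ∀ x : R, x + x = 0 := fun x => by rw [← two_mul, h2, zero_mul]
  have ha' : ∀ x, a * (a * x) = 0 := fun x => by rw [← mul_assoc, ha, zero_mul]
  have hb' : ∀ x, b * (b * x) = 0 := fun x => by rw [← mul_assoc, hb, zero_mul]
  have sq : ∀ x : R, (1 + x) ^ 2 = 1 + x ^ 2 := fun x => by
    rw [pow_two, pow_two, add_mul, mul_add, mul_add, one_mul, one_mul, mul_one, add_assoc,
      ← add_assoc x, h2', zero_add]
  have four : (a + b + a * b) ^ 4 = 0 → ((1 + a) * (1 + b)) ^ 12 = 1 := fun h => by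
    have : (1 + a) * (1 + b) = 1 + (a + b + a * b) := by noncomm_ring
    rw [this, show 12 = 2 * 2 * 3 by rfl, pow_mul, pow_mul, sq, sq, ← pow_mul, h, add_zero, one_pow]
  rcases hab with hab | hab
  · rcases hba with hba | hba
    · have hab' : ∀ x, a * (b * (a * x)) = a * x := fun x => by
        rw [← mul_assoc, ← mul_assoc, hab]
      have hba' : ∀ x, b * (a * (b * x)) = b * x := fun x => by
        rw [← mul_assoc, ← mul_assoc, hba]
      rw [mul_assoc] at hab hba
      have h3 : ((1 + a) * (1 + b)) ^ 3 =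
          1 + (4 * (a + a) + 4 * (b + b) + 6 * (a * b + a * b) + 2 * (b * a + b * a)) := by
        simp only [pow_succ, pow_zero, one_mul, mul_one, mul_add, add_mul, mul_assoc, ha, hb, ha',
          hb', hab, hba, hab', hba', mul_zero, add_zero]
        noncomm_ring
      rw [show 12 = 3 * 4 by rfl, pow_mul, h3]
      simp [h2']
    · have hba' : ∀ x, b * (a * (b * x)) = 0 := fun x => by
        rw [← mul_assoc, ← mul_assoc, hba, zero_mul]
      rw [mul_assoc] at hba
      apply four
      simp only [pow_succ, pow_zero, one_mul, mul_add, add_mul, mul_assoc, ha, hb, ha',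
        hb', hba, hba', mul_zero, add_zero, zero_add]
  · have hab' : ∀ x, a * (b * (a * x)) = 0 := fun x => by
      rw [← mul_assoc, ← mul_assoc, hab, zero_mul]
    rw [mul_assoc] at hab
    apply four
    simp only [pow_succ, pow_zero, one_mul, mul_add, add_mul, mul_assoc, ha, hb, ha',
      hb', hab, hab', mul_zero, add_zero, zero_add]

end Cfsg.Agent.H4
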