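import Cfsg.Agent.H35.RfQ

/-! Transfer of the action facts to the quotient `C(z) / Q` acting on `Q / ⟨z⟩`. -/

set_option autoImplicit false
set_option linter.unusedVariables false

namespace Cfsg.Agent.H4.RfXqa

open Cfsg Subgroup Cfsg.Agent.H18.Rf Cfsg.Agent.H35.RF
open scoped commutatorElement Pointwise

universe u

section
variable {G X A : Type u} [Group G] [Group X] [Group A] {z : G} {Q : Subgroup G}
  {π : C1 z →* X} {α : Q →* A} {φ : X →* MulAut A} {s : A → ZMod 2}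

theorem mem_ia {S : Subgroup G} {a : A} : a ∈ ia α S ↔ ∃ q : Q, (q : G) ∈ S ∧ α q = a := Iff.rfl

theorem mem_im {S : Subgroup G} {x : X} : x ∈ im π S ↔ ∃ c : C1 z, (c : G) ∈ S ∧ π c = x := Iff.rfl

theorem ia_iff (h : Qt z Q π α φ s) {S : Subgroup G} (hz : z ∈ S) (q : Q) :
    α q ∈ ia α S ↔ (q : G) ∈ S := by
  refine ⟨fun ⟨q', h1, h2⟩ => ?_, fun h1 => ⟨q, h1, rfl⟩⟩
  have : ((q'⁻¹ * q : Q) : G) ∈ zpowers z := (h.αk _).1 (by rw [map_mul, map_inv, h2, inv_mul_cancel])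
  have h3 := S.mul_mem h1 (zpowers_le.2 hz this)
  simpa using h3

theorem fix_iff (h : Qt z Q π α φ s) (nz : C1 z ≤ NN Q) (c : C1 z) (q : Q) :
    φ (π c) (α q) = α q ↔ ⁅(q : G), (c : G)⁆ ∈ zpowers z := by
  have hq : (c : G) * q * (c : G)⁻¹ ∈ Q := (mem_normalizer_iff.1 (nz c.2) q).1 q.2
  rw [h.act c q ⟨_, hq⟩ rfl, ← mul_inv_eq_one, ← map_inv, ← map_mul, h.αk, ← inv_mem_iff,
    ← commutatorElement_inv, inv_mem_iff, inv_mem_iff]
  rfl

theorem card_ia [Finite G] (h : Qt z Q π α φ s) (z1 : z ≠ 1) (zz : z * z = 1) {S : Subgroup G}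
    (hz : z ∈ S) (hS : S ≤ Q) : 2 * Nat.card (ia α S) = Nat.card S := by
  have k : α.ker = (zpowers z).subgroupOf Q := by
    ext q; rw [MonoidHom.mem_ker, h.αk, mem_subgroupOf]
  have le : α.ker ≤ S.subgroupOf Q := k ▸ comap_mono (zpowers_le.2 hz)
  have h1 := card_mul_index (α.ker.subgroupOf (S.subgroupOf Q))
  haveI : Fact (Nat.Prime 2) := ⟨Nat.prime_two⟩
  have h2 : Nat.card (zpowers z) = 2 := by
    rw [Nat.card_zpowers]; exact orderOf_eq_prime (by rw [sq, zz]) z1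
  rw [Nat.card_congr (subgroupOfEquivOfLe le).toEquiv, Nat.card_congr (subgroupOfEquivOfLe hS).toEquiv,
    ← relIndex, relIndex_ker, k,
    Nat.card_congr (subgroupOfEquivOfLe (zpowers_le.2 (hS hz))).toEquiv, h2] at h1
  exact h1

theorem nz_of {c : G} (h : c ∈ C1 z) : c ∈ NN (zpowers z) := by
  refine centralizer_le_normalizer _ ?_
  rintro _ ⟨n, rfl⟩
  exact (Commute.zpow_left (mem_centralizer_singleton_iff.1 h).symm n).eq

end

theorem xqa (lta : LtaStmt.{u}) : XqaStmt.{u} := by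
  intro G X A _ _ _ _ _ _ V z W R Q π α φ s ω co cq qt xq
  have va := co.vc.toVa
  have nz : C1 z ≤ NN Q := co.lx.nz
  have WQ : W ≤ Q := co.ql.inf ▸ inf_le_left
  have QR : Q ≤ R := co.ql.sup ▸ le_sup_left
  have RC : R ≤ C1 z := va.RM.trans inf_le_right
  have mW : ∀ g ∈ Q, g ∈ V → g ∈ W := fun g h1 h2 => co.ql.inf ▸ (⟨h1, h2⟩ : g ∈ Q ⊓ V)
  have ab : ∀ v ∈ V, ∀ v' ∈ V, v * v' = v' * v := fun v hv v' hv' =>
    mem_centralizer_iff.1 (va.cen.symm ▸ hv' : v' ∈ CC V) v hv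
  have zz := co.lx.zz
  have dec : ∀ r ∈ R, ∃ q ∈ Q, ∃ v ∈ V, q * v = r := fun r hr => by
    rw [← co.ql.sup, ← SetLike.mem_coe,
      coe_mul_of_right_le_normalizer_left _ _ (va.VR.trans (RC.trans nz))] at hr
    exact Set.mem_mul.1 hr
  have act : ∀ (c : C1 z) (q : Q), φ (π c) (α q) =
      α ⟨(c : G) * q * (c : G)⁻¹, (mem_normalizer_iff.1 (nz c.2) q).1 q.2⟩ :=
    fun c q => qt.act c q _ rfl
  have nW1 : ∀ v : C1 z, (v : G) ∈ V → π v ≠ 1 → (v : G) ∉ W := fun v _ h hw => h ((qt.πk v).2 (WQ hw))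
  refine ⟨?_, ?_, fun x => ?_, ?_, ?_, ?_, ?_, ?_, fun a ha => ?_, ?_⟩
  · have := card_ia qt va.z1 zz va.zW WQ
    rw [co.a.cW] at this
    omega
  · rintro _ ⟨q, hq, rfl⟩
    exact (qt.qf q).2 (va.el _ (va.WV hq))
  · obtain ⟨c, rfl⟩ := qt.πs x
    constructor
    · rintro ⟨c', hc, e⟩ _ ⟨q, hq, rfl⟩
      rw [← e, act, ia_iff qt va.zW]
      exact (mem_normalizer_iff.1 (va.nW hc) _).1 hq
    · intro h
      refine ⟨c, ⟨cq.nW c c.2 (mem_normalizer_fintype fun w hw => ?_), c.2⟩, rfl⟩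
      have := h (α ⟨w, WQ hw⟩) ⟨_, hw, rfl⟩
      rwa [act, ia_iff qt va.zW] at this
  · rintro _ ⟨v, hv, rfl⟩ _ ⟨q, hq, rfl⟩
    rw [fix_iff qt nz, commutatorElement_eq_one_iff_mul_comm.2 (ab (q : G) (va.WV hq) (v : G) hv)]
    exact one_mem _
  · rintro _ ⟨v, hv, rfl⟩ a
    obtain ⟨q, rfl⟩ := qt.αs a
    have : α q = α q⁻¹ := by rw [map_inv]; exact eq_inv_of_mul_eq_one_left (xq.sqA _)
    conv => enter [2, 2]; rw [this]
    rw [act, ← map_mul, ia_iff qt va.zW, ← inv_mem_iff]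
    have h := va.RV q (QR q.2) v hv
    rw [← commutatorElement_inv] at h
    exact h
  · rintro _ ⟨v, hv, rfl⟩ ne
    have h1 := co.b.ker v hv (nW1 v hv ne)
    obtain ⟨K, hK⟩ : ∃ K : Subgroup G, K = R ⊓ CM {(v : G)} (zpowers z) := ⟨_, rfl⟩
    have mK : ∀ r, r ∈ K ↔ r ∈ R ∧ ⁅r, (v : G)⁆ ∈ zpowers z := fun r => by
      rw [hK, mem_inf, mem_CM]
      exact ⟨fun h => ⟨h.1, h.2.2 _ rfl⟩, fun h => ⟨h.1, nz_of (RC h.1), fun x hx => hx ▸ h.2⟩⟩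
    have VK : V ≤ K := fun w hw => (mK w).2 ⟨va.VR hw, by
      rw [commutatorElement_eq_one_iff_mul_comm.2 (ab _ hw (v : G) hv)]; exact one_mem _⟩
    have e1 : {r | r ∈ R ∧ ⁅r, (v : G)⁆ ∈ zpowers z} = (K : Set G) := by ext r; exact (mK r).symm
    have e2 : {a | φ (π v) a = a} = (ia α (Q ⊓ K) : Set A) := by
      ext a
      obtain ⟨q, rfl⟩ := qt.αs a
      rw [Set.mem_setOf_eq, fix_iff qt nz, SetLike.mem_coe,
        ia_iff qt (show z ∈ Q ⊓ K from ⟨WQ va.zW, VK (va.WV va.zW)⟩), mem_inf, mK]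
      exact ⟨fun h => ⟨q.2, QR q.2, h⟩, fun h => h.2.2⟩
    rw [e1, ← Nat.card_coe_set_eq] at h1
    rw [e2, ← Nat.card_coe_set_eq]
    have h2 := card_ia qt va.z1 zz (show z ∈ Q ⊓ K from ⟨WQ va.zW, VK (va.WV va.zW)⟩) inf_le_left
    have ci : ∀ L : Subgroup G, Nat.card ↥(Q ⊓ L) * Q.relIndex L = Nat.card L := fun L => by
      rw [← card_mul_index (Q.subgroupOf L), ← inf_subgroupOf_right,
        Nat.card_congr (subgroupOfEquivOfLe (inf_le_right : Q ⊓ L ≤ L)).toEquiv, inf_subgroupOf_right]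
      rfl
    have h3 := ci V
    have h4 := ci K
    rw [co.ql.inf, co.a.cW, va.cV] at h3
    have h5 : Q.relIndex V ≤ Q.relIndex K := relIndex_le_of_le_right VK index_ne_zero_of_finite
    have h6 : Nat.card ↥(Q ⊓ K) * 16 ≤ Nat.card K := h4 ▸ Nat.mul_le_mul_left _ (by omega)
    change Nat.card K ≤ _ at h1
    change Nat.card (ia α (Q ⊓ K)) ≤ _
    omega
  · rintro _ ⟨v, hv, rfl⟩ _ ⟨v', hv', rfl⟩ n1 n2 n3 a f1 f2
    obtain ⟨q, rfl⟩ := qt.αs a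
    rw [fix_iff qt nz] at f1 f2
    rw [← map_mul] at n3
    exact ⟨q, mW _ q.2 (co.b.four v hv v' hv' (nW1 v hv n1) (nW1 v' hv' n2)
      (nW1 (v * v') (V.mul_mem hv hv') n3) q (QR q.2) f1 f2), rfl⟩
  · rintro _ ⟨v, hv, rfl⟩
    obtain ⟨r, hr, rV, hc⟩ := co.b.big v hv
    obtain ⟨q, hq, v', hv', rfl⟩ := dec r hr
    refine ⟨α ⟨q, hq⟩, fun h => rV (V.mul_mem (va.WV ((ia_iff qt va.zW _).1 h)) hv'), ?_⟩
    rw [fix_iff qt nz]
    have : ⁅q * v', (v : G)⁆ = ⁅q, (v : G)⁆ := by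
      rw [commutatorElement_def, commutatorElement_def, mul_assoc q, ab _ hv' (v : G) hv]; group
    exact this ▸ hc
  · obtain ⟨q, rfl⟩ := qt.αs a
    rw [fix_iff qt nz] at ha
    exact (qt.αk q).2 ((lta G V z W R Q ω va co.a co.ql).2.1
      ⟨q.2, nz_of (RC (QR q.2)), fun x hx => hx ▸ ha⟩)
  · rintro _ ⟨c, hc, rfl⟩ c3 hf
    have h1 : (c : G) ∈ R ⊔ zpowers (ω : G) :=
      co.f c hc (QR ((qt.πk (c ^ 3)).1 (by rw [map_pow, c3]))) fun w hw h => by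
        refine (qt.αk ⟨w, WQ hw⟩).1 (hf _ ⟨_, hw, rfl⟩ ((fix_iff qt nz _ _).2 ?_))
        rwa [← inv_mem_iff, commutatorElement_inv]
    rw [← SetLike.mem_coe, coe_mul_of_right_le_normalizer_left _ _ (zpowers_le.2 (va.nR co.a.om))] at h1
    obtain ⟨r, hr, _, ⟨k, rfl⟩, e⟩ := Set.mem_mul.1 h1
    obtain ⟨q, hq, v, hv, rfl⟩ := dec r hr
    have e1 : c = ⟨q, RC (QR hq)⟩ * ⟨v, RC (va.VR hv)⟩ * ω ^ k := Subtype.ext e.symm
    have cm : Commute (π ⟨v, RC (va.VR hv)⟩) (π ω) := by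
      rw [← commutatorElement_eq_one_iff_commute, ← map_commutatorElement, qt.πk]
      exact WQ (co.a.ωV v hv)
    have v2 : π ⟨v, RC (va.VR hv)⟩ ^ 2 = 1 := by
      rw [← map_pow, show (⟨v, RC (va.VR hv)⟩ : C1 z) ^ 2 = 1 from Subtype.ext (by
        simpa [sq] using va.el v hv), map_one]
    have w3 : π ω ^ 3 = 1 := by
      rw [← map_pow, show ω ^ 3 = 1 from Subtype.ext (by
        simpa [← co.a.o3] using pow_orderOf_eq_one (ω : G)), map_one]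
    rw [e1, map_mul, map_mul, (qt.πk ⟨q, RC (QR hq)⟩).2 hq, one_mul, map_zpow] at c3 ⊢
    rw [(cm.zpow_right k).mul_pow, ← zpow_natCast (π ω ^ k), ← zpow_mul, mul_comm k, zpow_mul,
      zpow_natCast, w3, one_zpow, mul_one, pow_succ, v2, one_mul] at c3
    rw [c3, one_mul]
    exact zpow_mem_zpowers _ _

end Cfsg.Agent.H4.RfXqa
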