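import Cfsg.Agent.H77.SgDefs2
import Cfsg.Agent.H22.SgBlock

/-!
# Transitivity on lines
-/

set_option autoImplicit false

namespace Cfsg.Agent.H4.SgLines

open Cfsg Module Cfsg.Agent.H77.Sg Cfsg.Agent.H22.SgBlock

universe u v

variable {F : Type u} {K : Type v} [Field F] [Field K] [Algebra F K]

/-- Both vectors are moved into `W` by an element of `X`. -/
def Gm (X : Subgroup (K ≃ₗ[F] K)) (W : Submodule F K) (x y : K) : Prop :=
  ∃ g ∈ X, g x ∈ W ∧ g y ∈ W

variable {X : Subgroup (K ≃ₗ[F] K)} {W : Submodule F K}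

theorem Gm.map {g : K ≃ₗ[F] K} (hg : g ∈ X) {x y : K} (h : Gm X W x y) : Gm X W (g x) (g y) := by
  obtain ⟨k, hk, h1, h2⟩ := h
  refine ⟨k * g⁻¹, X.mul_mem hk (X.inv_mem hg), ?_, ?_⟩
  · show k (g.symm (g x)) ∈ W
    rwa [g.symm_apply_apply]
  · show k (g.symm (g y)) ∈ W
    rwa [g.symm_apply_apply]

theorem Gm.of_map {g : K ≃ₗ[F] K} (hg : g ∈ X) {x y : K} (h : Gm X W (g x) (g y)) : Gm X W x y := by
  obtain ⟨k, hk, h1, h2⟩ := h
  exact ⟨k * g, X.mul_mem hk hg, h1, h2⟩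

theorem Gm.comb {x y : K} (h : Gm X W x y) (a b c d : F) :
    Gm X W (a • x + b • y) (c • x + d • y) := by
  obtain ⟨k, hk, h1, h2⟩ := h
  refine ⟨k, hk, ?_, ?_⟩ <;> rw [map_add, map_smul, map_smul] <;>
    exact W.add_mem (W.smul_mem _ h1) (W.smul_mem _ h2)

theorem gm_iff {a u s x : K} {c₁ c₂ d : F} (hc : c₁ ≠ c₂) (hd : d ≠ 0) (hu : u = a + c₁ • (1 : K))
    (hv : a + c₂ • (1 : K) = d • (s * u)) : Gm X W x (a * x) ↔ Gm X W (u * x) (s * (u * x)) := by
  have e1 : u * x = c₁ • x + (1 : F) • (a * x) := by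
    rw [hu, add_mul, smul_mul_assoc, one_mul, one_smul, add_comm]
  have e2 : d • (s * (u * x)) = c₂ • x + a * x := by
    rw [← mul_assoc, ← smul_mul_assoc, ← hv, add_mul, smul_mul_assoc, one_mul, add_comm]
  have hc' : c₁ - c₂ ≠ 0 := sub_ne_zero.2 hc
  constructor
  · intro h
    have := h.comb c₁ 1 (d⁻¹ * c₂) d⁻¹
    rwa [← e1, mul_smul, ← smul_add, ← e2, inv_smul_smul₀ hd] at this
  · intro h
    have := h.comb (c₁ - c₂)⁻¹ (-(c₁ - c₂)⁻¹ * d) (-(c₁ - c₂)⁻¹ * c₂) ((c₁ - c₂)⁻¹ * c₁ * d)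
    rw [mul_smul, mul_smul _ d, e2, e1] at this
    convert this using 1
    · simp only [Algebra.smul_def, map_neg, map_inv₀, map_sub, map_one]
      have : algebraMap F K c₁ - algebraMap F K c₂ ≠ 0 := by
        rw [← map_sub]; exact (map_ne_zero _).2 hc'
      field_simp
      ring
    · simp only [Algebra.smul_def, map_neg, map_inv₀, map_sub, map_one, map_mul]
      have : algebraMap F K c₁ - algebraMap F K c₂ ≠ 0 := by
        rw [← map_sub]; exact (map_ne_zero _).2 hc'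
      field_simp
      ring

theorem arith {Q q n t c i ρ k b k' : ℕ} (hQ : Q = n * (q - 1) * t + 1) (hq : 2 ≤ q) (hn : 1 ≤ n)
    (ht : 1 ≤ t) (hc : c * i = Q - 1) (hi : i ∣ n) (h : (Q - q) * ρ = (Q - 1) * k)
    (hρ : ρ = c * b) (hk : k = (q - 1) * k') (h0 : ρ ≠ 0) : Q - 1 ≤ ρ := by
  obtain ⟨r, rfl⟩ : ∃ r, q = r + 1 := ⟨q - 1, by omega⟩
  obtain ⟨m, hm⟩ : ∃ m, n * t = m + 1 := ⟨n * t - 1, by have := Nat.mul_pos hn ht; omega⟩
  simp only [Nat.add_sub_cancel] at hQ hk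
  have e1 : Q - (r + 1) = r * m := by
    have : Q = r * m + (r + 1) := by
      rw [hQ]; linear_combination r * hm
    omega
  have hc0 : 0 < c := by
    rcases Nat.eq_zero_or_pos c with rfl | h1
    · exact absurd (by rw [hρ, zero_mul]) h0
    · exact h1
  rw [e1, ← hc, hρ, hk] at h
  have h2 : m * b = i * k' := by
    have h3 : (c * r) * (m * b) = (c * r) * (i * k') := by linear_combination h
    exact Nat.eq_of_mul_eq_mul_left (Nat.mul_pos hc0 (by omega)) h3
  have h4 : i.Coprime m := by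
    refine Nat.Coprime.coprime_dvd_left (hi.mul_right t) ?_
    rw [hm]
    simp
  have h5 : i ∣ b := h4.dvd_of_dvd_mul_left ⟨k', h2⟩
  have h6 : 0 < b := by
    rcases Nat.eq_zero_or_pos b with rfl | h1
    · exact absurd (by rw [hρ, mul_zero]) h0
    · exact h1
  rw [← hc, hρ]
  exact Nat.mul_le_mul_left c (Nat.le_of_dvd h6 h5)

theorem lines : Lines0.{u, v} := by
  intro F K _ _ _ _ _ n q t X h hc hnu x y x' y' hx hy hx' hy'
  classical
  letI fK : Fintype K := Fintype.ofFinite K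
  set W : Submodule F K := Submodule.span F {x', y'} with hW
  have hq2 : 2 ≤ q := h.hq ▸ Finite.one_lt_card
  have hn7 := h.n7
  have hnq : n < q := by
    rcases h.hR with ⟨h1, -⟩ | ⟨-, h1⟩
    · omega
    · have := Nat.le_of_dvd (by omega) h1
      omega
  have ht2 : 2 ≤ t := by
    have := h.big
    have h1 : 1 ≤ (n * n) ^ 2 := Nat.one_le_pow _ _ (by positivity)
    omega
  have hU : Nat.card Kˣ = n * (q - 1) * t := by rw [Nat.card_units, h.card, Nat.add_sub_cancel]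
  let C : Subgroup Kˣ := X.comap (mulH F K)
  have hμ : Nat.card (powMonoidHom t : Kˣ →* Kˣ).ker = t := by
    rw [IsCyclic.card_powMonoidHom_ker, hU]
    exact Nat.gcd_eq_right (dvd_mul_left _ _)
  have d1 : t ∣ Nat.card C := by
    rw [← hμ]
    exact Subgroup.card_dvd_of_le fun s hs => (h.mem s).2 ⟨1, s, hs, (one_smul _ _).symm⟩
  have d2 : q - 1 ∣ Nat.card C := by
    let f : Fˣ →* Kˣ := Units.map (algebraMap F K : F →* K)
    have hf : Function.Injective f := Units.map_injective (algebraMap F K).injective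
    rw [← h.hq, ← Nat.card_units, Nat.card_congr (MonoidHom.ofInjective hf).toEquiv]
    refine Subgroup.card_dvd_of_le ?_
    rintro _ ⟨c, rfl⟩
    exact (h.mem _).2 ⟨c, 1, one_pow _, by simp [f, Algebra.smul_def]⟩
  have hCi : Nat.card C * C.index = Nat.card K - 1 := by rw [C.card_mul_index, Nat.card_units]
  have hi : C.index ∣ n := by
    obtain ⟨j, hj⟩ := h.cop.mul_dvd_of_dvd_of_dvd d1 d2
    refine ⟨j, ?_⟩
    rw [hj, h.card, Nat.add_sub_cancel] at hCi
    refine Nat.eq_of_mul_eq_mul_left (Nat.mul_pos (show 0 < t by omega) (show 0 < q - 1 by omega)) ?_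
    linear_combination -hCi
  obtain ⟨s₀, hs₀, hs₁⟩ : ∃ s : Kˣ, s ^ t = 1 ∧ s ≠ 1 := by
    haveI : Nontrivial (powMonoidHom t : Kˣ →* Kˣ).ker :=
      Finite.one_lt_card_iff_nontrivial.1 (by omega)
    obtain ⟨s, hs⟩ := exists_ne (1 : (powMonoidHom t : Kˣ →* Kˣ).ker)
    exact ⟨s, s.2, fun e => hs (Subtype.ext e)⟩
  have inv : ∀ g ∈ X, ∀ x y, Gm X W x y → Gm X W (g x) (g y) := fun g hg x y => Gm.map hg
  have hρ : ∀ a : K, a ∉ F ∙ (1 : K) → {x | x ≠ 0 ∧ Gm X W x (a * x)}.ncard =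
      {x | x ≠ 0 ∧ Gm X W x (s₀ * x)}.ncard := by
    intro a ha
    have ne : ∀ c : F, a + c • (1 : K) ≠ 0 := fun c e => ha (by
      rw [eq_neg_of_add_eq_zero_left e]
      exact Submodule.neg_mem _ (Submodule.smul_mem _ _ (Submodule.mem_span_singleton_self _)))
    obtain ⟨c₁, c₂, hne, he⟩ : ∃ c₁ c₂ : F, c₁ ≠ c₂ ∧
        ((Units.mk0 _ (ne c₁) : Kˣ) : Kˣ ⧸ C) = (Units.mk0 _ (ne c₂) : Kˣ) := by
      by_contra hcon
      push Not at hcon
      have := Nat.card_le_card_of_injective (fun c : F => ((Units.mk0 _ (ne c) : Kˣ) : Kˣ ⧸ C))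
        fun c₁ c₂ e => by_contra fun hne => hcon c₁ c₂ hne e
      have h1 := Nat.le_of_dvd (by omega) hi
      rw [h.hq, ← Subgroup.index_eq_card] at this
      omega
    obtain ⟨d, s, hs, e⟩ := (h.mem _).1 (QuotientGroup.eq.1 he)
    have e' : a + c₂ • (1 : K) = d • ((s : K) * (a + c₁ • (1 : K))) := by
      rw [← smul_mul_assoc, ← e, Units.val_mul, Units.val_inv_eq_inv_val, Units.val_mk0,
        Units.val_mk0, mul_comm, mul_inv_cancel_left₀ (ne c₁)]
    have hd : d ≠ 0 := by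
      rintro rfl
      exact ne c₂ (by rw [e', zero_smul])
    have hs1 : s ≠ 1 := by
      rintro rfl
      rw [Units.val_one, one_mul] at e'
      by_cases h1 : d = 1
      · rw [h1, one_smul, add_right_inj] at e'
        exact hne (smul_left_injective F one_ne_zero e').symm
      · apply ha
        have h2 : (1 - d) • a = (d * c₁ - c₂) • (1 : K) := by
          rw [sub_smul, sub_smul, one_smul, mul_smul, sub_eq_sub_iff_add_eq_add, e', smul_add,
            add_comm]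
        rw [← inv_smul_smul₀ (sub_ne_zero.2 (Ne.symm h1)) a, h2]
        exact Submodule.smul_mem _ _
          (Submodule.smul_mem _ _ (Submodule.mem_span_singleton_self _))
    rw [← hc.const _ inv s s₀ hs hs₀ hs1 hs₁]
    refine Set.ncard_congr (fun x _ => (a + c₁ • (1 : K)) * x) (fun x hx => ?_)
      (fun x y _ _ e => mul_left_cancel₀ (ne c₁) e) fun z hz => ?_
    · exact ⟨mul_ne_zero (ne c₁) hx.1, (gm_iff hne hd rfl e').1 hx.2⟩
    · refine ⟨(a + c₁ • (1 : K))⁻¹ * z, ⟨mul_ne_zero (inv_ne_zero (ne c₁)) hz.1,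
        (gm_iff hne hd rfl e').2 ?_⟩, mul_inv_cancel_left₀ (ne c₁) z⟩
      rw [mul_inv_cancel_left₀ (ne c₁)]
      exact hz.2
  have hk : ∀ x : K, x ≠ 0 → {a | a ∉ F ∙ (1 : K) ∧ Gm X W x (a * x)}.ncard =
      {a | a ∉ F ∙ (1 : K) ∧ Gm X W 1 a}.ncard := by
    intro x hx
    obtain ⟨g, hg, e⟩ := hc.tr 1 x one_ne_zero hx
    symm
    refine Set.ncard_congr (fun a _ => g a * x⁻¹) (fun a ha => ⟨fun h1 => ha.1 ?_, ?_⟩)
      (fun a b _ _ e => g.injective (mul_right_cancel₀ (inv_ne_zero hx) e)) fun z hz => ?_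
    · obtain ⟨c, hc⟩ := Submodule.mem_span_singleton.1 h1
      refine Submodule.mem_span_singleton.2 ⟨c, g.injective ?_⟩
      rw [map_smul, e, ← inv_mul_cancel_right₀ hx (g a), ← hc, smul_mul_assoc, one_mul]
    · rw [inv_mul_cancel_right₀ hx, ← e]
      exact ha.2.map hg
    · refine ⟨g.symm (z * x), ⟨fun h1 => hz.1 ?_, Gm.of_map hg ?_⟩, ?_⟩
      · obtain ⟨c, hc⟩ := Submodule.mem_span_singleton.1 h1
        refine Submodule.mem_span_singleton.2 ⟨c, mul_right_cancel₀ hx ?_⟩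
        rw [← g.apply_symm_apply (z * x), ← hc, map_smul, e, smul_mul_assoc, one_mul]
      · rw [e, g.apply_symm_apply]
        exact hz.2
      · rw [g.apply_symm_apply, mul_inv_cancel_right₀ hx]
  obtain ⟨b, hb⟩ : Nat.card C ∣ {x | x ≠ 0 ∧ Gm X W x (s₀ * x)}.ncard := by
    refine dvd_ncard (fun x y => ∃ c ∈ C, y = (c : K) * x) _ _
      (fun x _ => ⟨1, C.one_mem, by simp⟩) ?_ ?_ ?_ fun x hx => ?_
    · rintro x _ ⟨c, hc, rfl⟩
      exact ⟨c⁻¹, C.inv_mem hc, by simp⟩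
    · rintro x _ _ ⟨c, hc, rfl⟩ ⟨c', hc', rfl⟩
      exact ⟨c' * c, C.mul_mem hc' hc, by simp [mul_assoc]⟩
    · rintro x hx _ ⟨c, hc, rfl⟩
      refine ⟨mul_ne_zero c.ne_zero hx.1, ?_⟩
      have := hx.2.map (g := mulH F K c) hc
      rwa [mulH_apply, mulH_apply, mul_left_comm] at this
    · have : {y | ∃ c ∈ C, y = (c : K) * x} = (fun c : Kˣ => (c : K) * x) '' (C : Set Kˣ) := by
        ext y
        exact ⟨fun ⟨c, hc, e⟩ => ⟨c, hc, e.symm⟩, fun ⟨c, hc, e⟩ => ⟨c, hc, e.symm⟩⟩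
      rw [this, Set.ncard_image_of_injective _ fun c c' e => Units.ext (mul_right_cancel₀ hx.1 e)]
      rfl
  obtain ⟨k', hk'⟩ : q - 1 ∣ {a | a ∉ F ∙ (1 : K) ∧ Gm X W 1 a}.ncard := by
    rw [← h.hq]
    refine dvd_ncard (fun x y => ∃ c : F, c ≠ 0 ∧ y = c • x) _ _
      (fun x _ => ⟨1, one_ne_zero, by simp⟩) ?_ ?_ ?_ fun x hx => ncard_orb ?_
    · rintro x _ ⟨c, hc, rfl⟩
      exact ⟨c⁻¹, inv_ne_zero hc, (inv_smul_smul₀ hc x).symm⟩
    · rintro x _ _ ⟨c, hc, rfl⟩ ⟨c', hc', rfl⟩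
      exact ⟨c' * c, mul_ne_zero hc' hc, (mul_smul _ _ _).symm⟩
    · rintro x hx _ ⟨c, hc, rfl⟩
      refine ⟨fun h1 => hx.1 ?_, ?_⟩
      · rw [← inv_smul_smul₀ hc x]
        exact Submodule.smul_mem _ _ h1
      · simpa using hx.2.comb 1 0 0 c
    · rintro rfl
      exact hx.1 (Submodule.zero_mem _)
  have hA : (Finset.univ.filter fun a : K => a ∉ F ∙ (1 : K)).card = Nat.card K - q := by
    have h1 := Finset.card_filter_add_card_filter_not (s := Finset.univ)
      fun a : K => a ∈ F ∙ (1 : K)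
    have h2 : (Finset.univ.filter fun a : K => a ∈ F ∙ (1 : K)).card = q := by
      rw [← Fintype.card_subtype, ← Nat.card_eq_fintype_card, ← h.hq]
      exact Nat.card_congr (LinearEquiv.toSpanNonzeroSingleton F K 1 one_ne_zero).toEquiv.symm
    rw [Finset.card_univ, ← Nat.card_eq_fintype_card, h2] at h1
    omega
  have hB : (Finset.univ.filter fun a : K => a ≠ 0).card = Nat.card K - 1 := by
    rw [Finset.filter_ne', Finset.card_erase_of_mem (Finset.mem_univ _), Finset.card_univ,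
      Nat.card_eq_fintype_card]
  have hcount := Finset.card_mul_eq_card_mul
    (s := Finset.univ.filter fun a : K => a ∉ F ∙ (1 : K))
    (t := Finset.univ.filter fun a : K => a ≠ 0) (fun a x => Gm X W x (a * x))
    (m := {x | x ≠ 0 ∧ Gm X W x (s₀ * x)}.ncard) (n := {a | a ∉ F ∙ (1 : K) ∧ Gm X W 1 a}.ncard)
    (fun a ha => by
      rw [← hρ a (Finset.mem_filter.1 ha).2, ← Set.ncard_coe_finset]
      congr 1
      ext z
      simp [Finset.bipartiteAbove])
    (fun z hz => by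
      rw [← hk z (Finset.mem_filter.1 hz).2, ← Set.ncard_coe_finset]
      congr 1
      ext a
      simp [Finset.bipartiteBelow])
  rw [hA, hB] at hcount
  have h0 : {x | x ≠ 0 ∧ Gm X W x (s₀ * x)}.ncard ≠ 0 := by
    obtain ⟨z, hz, g, hg, e1, e2⟩ := hnu x' y' hx' hy' s₀ hs₀ hs₁
    refine Set.ncard_ne_zero_of_mem (a := z) ⟨hz, ?_⟩
    rw [← e2, ← e1]
    exact Gm.map hg ⟨1, X.one_mem, Submodule.subset_span (by simp),
      Submodule.subset_span (by simp)⟩
  have hall := arith h.card hq2 (by omega) (by omega) hCi hi hcount hb hk' h0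
  have heq : {x | x ≠ 0 ∧ Gm X W x (s₀ * x)} = {x : K | x ≠ 0} := by
    refine Set.eq_of_subset_of_ncard_le (fun x hx => hx.1) (le_trans (le_of_eq ?_) hall)
    rw [← hB, ← Set.ncard_coe_finset]
    congr 1
    ext a
    simp
  obtain ⟨z, hz, g, hg, e1, e2⟩ := hnu x y hx hy s₀ hs₀ hs₁
  have h1 : z ∈ {x | x ≠ 0 ∧ Gm X W x (s₀ * x)} := heq ▸ hz
  have h2 := h1.2
  rw [← e2, ← e1] at h2
  exact h2.of_map hg

end Cfsg.Agent.H4.SgLines
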