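import Mathlib
import Cfsg.Agent.H4.Bryuk
import Cfsg.Agent.H4.PLift
import Cfsg.Agent.H2.Hall

/-! Groups whose elements of order `p` are all fused: the `p`-length is one. -/

set_option autoImplicit false

namespace Cfsg.Agent.H4

open Subgroup
open scoped commutatorElement Pointwise

section General

variable {G : Type*} [Group G] {p : ℕ}

theorem exists_pow_order_p {x : G} {k : ℕ} (hx : x ^ p ^ k = 1) (hx1 : x ≠ 1) :
    ∃ j ∈ zpowers x, j ≠ 1 ∧ j ^ p = 1 := by
  obtain ⟨i, h1, h2⟩ := exists_pow_not_mem (V := ⊥) hx (by simpa using hx1)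
  exact ⟨x ^ p ^ i, npow_mem_zpowers x _, by simpa using h1, by
    rw [← pow_mul, ← pow_succ]; simpa using h2⟩

theorem exists_order_p_of_ne_bot {P : Subgroup G} (hP : IsPGroup p P) (h : P ≠ ⊥) :
    ∃ j ∈ P, j ≠ 1 ∧ j ^ p = 1 := by
  obtain ⟨⟨x, hx⟩, hx1⟩ := ne_bot_iff_exists_ne_one.1 h
  obtain ⟨k, hk⟩ := hP ⟨x, hx⟩
  obtain ⟨j, hj, h⟩ := exists_pow_order_p (x := x) (congrArg Subtype.val hk)
    fun h => hx1 (Subtype.ext h)
  exact ⟨j, zpowers_le.2 hx hj, h⟩

theorem exists_order_p_centralizer [Finite G] {T R : Subgroup G} [T.Normal] (hT : IsPGroup p T)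
    (hΩ : ∀ x : G, x ^ p = 1 → x ∈ T) (hR : (Nat.card R).Coprime p) {x : G} {k : ℕ}
    (hx : x ^ p ^ k = 1) (hx1 : x ≠ 1) (hxR : x ∈ normalizer (R : Set G)) :
    ∃ j : G, j ≠ 1 ∧ j ^ p = 1 ∧ j ∈ centralizer (R : Set G) := by
  obtain ⟨j, hj, hj1, hjp⟩ := exists_pow_order_p hx hx1
  refine ⟨j, hj1, hjp, fun r hr => ?_⟩
  have h1 : ⁅j, r⁆ ∈ T ⊓ R := by
    refine mem_inf.2 ⟨?_, ?_⟩
    · rw [commutatorElement_def, mul_assoc, mul_assoc, ← mul_assoc r]
      exact mul_mem (hΩ j hjp) (‹T.Normal›.conj_mem _ (inv_mem (hΩ j hjp)) r)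
    · exact mul_mem (conj_mem_of_mem_normalizer (zpowers_le.2 hxR hj) hr) (inv_mem hr)
  rw [H3.inf_eq_bot_of_isPGroup_of_coprime hT hR, mem_bot] at h1
  exact (commutatorElement_eq_one_iff_mul_comm.1 h1).symm

theorem pLengthLE_one_of_quotient_coprime [Finite G]
    (h : (Nat.card (G ⧸ pCore p G)).Coprime p) : PLengthLE p 1 G :=
  pLengthLE_succ_of_ker_le (QuotientGroup.mk'_surjective (pCore p G))
    (by rw [QuotientGroup.ker_mk']; exact H3.pCore_le_pPrimePCore p G) (pLengthLE_zero_iff.2 h)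

theorem exists_lift_pPrimeCore [Finite G] : ∃ H : Subgroup G, (Nat.card H).Coprime p ∧
    H.map (QuotientGroup.mk' (pCore p G)) = pPrimeCore p (G ⧸ pCore p G) := by
  obtain ⟨H, h1, h2⟩ := exists_coprime_lift (QuotientGroup.mk'_surjective (pCore p G))
    (L := pPrimeCore p (G ⧸ pCore p G)) (by
      rw [QuotientGroup.ker_mk']
      exact H3.coprime_card_of_isPGroup (H3.pCore_isPGroup p G) (H3.pPrimeCore_coprime p _).symm)
  exact ⟨H, h2 ▸ H3.pPrimeCore_coprime p _, h1⟩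

/-- If all elements of order `p` are in `Z(O_p(G))`, then either `G` is `p`-closed or an element of
order `p` centralizes `O_{p,p'}(G)`. -/
theorem pLengthLE_one_or_exists [Finite G] [Fact p.Prime]
    (hΩ : ∀ x : G, x ^ p = 1 → x ∈ pCore p G ⊓ centralizer (pCore p G : Set G)) :
    PLengthLE p 1 G ∨ ∃ j : G, j ≠ 1 ∧ j ^ p = 1 ∧ j ∈ centralizer
      (((pPrimeCore p (G ⧸ pCore p G)).comap (QuotientGroup.mk' _) : Subgroup G) : Set G) := by
  obtain ⟨H, hH, hHπ⟩ := exists_lift_pPrimeCore (G := G) (p := p)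
  refine or_iff_not_imp_right.2 fun hne => pLengthLE_one_of_quotient_coprime
    (coprime_of_expLE_zero fun a k ha => ?_)
  obtain ⟨g, rfl⟩ := QuotientGroup.mk'_surjective _ a
  obtain ⟨x, -, hx, j, hj⟩ := H51.exists_pelt_lift _ g ha
  obtain ⟨v, hv, hvx⟩ := exists_mul_mem_normalizer (f := QuotientGroup.mk' (pCore p G)) (L := H)
    (by rw [QuotientGroup.ker_mk']
        exact (H3.coprime_card_of_isPGroup (H3.pCore_isPGroup p G) hH.symm).symm)
    (Or.inr (by rw [QuotientGroup.ker_mk']; exact isSolvable_of_isPGroup (H3.pCore_isPGroup p G)))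
    (a := x) (by rw [hHπ, normalizer_eq_top]; trivial)
  rw [QuotientGroup.ker_mk'] at hv
  obtain ⟨i, hi⟩ := exists_mul_pow_eq_one (H3.pCore_isPGroup p G) hj hv
  by_cases h1 : v * x = 1
  · rw [pow_zero, pow_one, ← hx, eq_inv_of_mul_eq_one_right h1]
    exact (QuotientGroup.eq_one_iff _).2 (inv_mem hv)
  · obtain ⟨z, hz1, hzp, hz⟩ := exists_order_p_centralizer (H3.pCore_isPGroup p G)
      (fun x hx => (hΩ x hx).1) hH hi h1 hvx
    refine absurd ⟨z, hz1, hzp, ?_⟩ hne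
    rw [← hHπ, comap_map_eq, QuotientGroup.ker_mk']
    exact le_centralizer_iff.1 (sup_le (le_centralizer_iff.1 (zpowers_le.2 hz) |>.trans
      (by simp)) (le_centralizer_iff.1 (zpowers_le.2 (hΩ z hzp).2)) |>.trans
      (le_refl (centralizer (zpowers z : Set G)))) (mem_zpowers z)

theorem exists_lift_order_p [Finite G] [Fact p.Prime] {A : Type*} [Group A] {f : G →* A}
    (hf : Function.Surjective f) (hk : (Nat.card f.ker).Coprime p) {a : A} (ha : a ^ p = 1) :
    ∃ x : G, x ^ p = 1 ∧ f x = a := by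
  obtain ⟨g, rfl⟩ := hf a
  obtain ⟨x, -, hx, j, hj⟩ := H51.exists_pelt_lift (p := p) f g (k := 1) (by rwa [pow_one])
  refine ⟨x, ?_, hx⟩
  have h1 : x ^ p ∈ zpowers x ⊓ f.ker := mem_inf.2 ⟨npow_mem_zpowers x p, by
    rw [MonoidHom.mem_ker, map_pow, hx, ha]⟩
  rwa [H3.inf_eq_bot_of_isPGroup_of_coprime (HH.isPGroup_zpowers_of_pow_eq_one hj) hk,
    mem_bot] at h1

theorem pLengthLE_one_of_char_core [Finite G] [Fact p.Prime] (hp : p ≠ 2) (hG : IsPSolvable p G)
    (hO : pPrimeCore p G = ⊥) (h : ∀ K : Subgroup G, K.Characteristic →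
      (∃ x ∈ K, x ≠ 1 ∧ x ^ p = 1) → ∀ y : G, y ^ p = 1 → y ∈ K) : PLengthLE p 1 G := by
  have hC := H53.centralizer_pCore_le hG hO
  have hT := H3.pCore_isPGroup p G
  haveI := H3.pCore_characteristic p G
  by_cases h0 : pCore p G = ⊥
  · refine pLengthLE_one_of_isPGroup (H3.pCore_eq_top_iff.1 (eq_top_iff.2 fun x _ => hC ?_))
    rw [h0]; simp [mem_centralizer_iff]
  have hΩ : ∀ x : G, x ^ p = 1 → x ∈ pCore p G ⊓ centralizer (pCore p G : Set G) := fun x hx => by
    obtain ⟨j, hj, hj'⟩ := exists_order_p_of_ne_bot (hT.to_inf_left)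
      (H1.inf_centralizer_ne_bot_of_isPGroup hT hT le_normalizer h0)
    have := h _ inferInstance ⟨j, hj.2, hj'⟩ x hx
    exact ⟨hC this, this⟩
  rcases pLengthLE_one_or_exists hΩ with h1 | ⟨j, hj1, hjp, hj⟩
  · exact h1
  haveI := Subgroup.Characteristic.comap_quotient_mk (H3.pPrimeCore_characteristic p (G ⧸ pCore p G))
  have h2 := h _ inferInstance ⟨j, hj, hj1, hjp⟩
  obtain ⟨H, hH, hHπ⟩ := exists_lift_pPrimeCore (G := G) (p := p)
  have h3 : pPrimeCore p (G ⧸ pCore p G) = ⊥ := by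
    rw [← hHπ, Subgroup.map_eq_bot_iff, QuotientGroup.ker_mk']
    intro x hx
    have hxn : x ∈ normalizer (pCore p G : Set G) := by rw [normalizer_eq_top]; trivial
    have := H7.aut_eq_one_of_fixes_omega hT hp (HH.cjA hxn) (by
      refine Nat.Coprime.coprime_dvd_left (orderOf_dvd_of_pow_eq_one ?_) hH
      rw [← HH.cjA_pow]
      ext t
      rw [HH.coe_cjA, pow_card_eq_one_of_mem hx]
      simp) fun t ht => Subtype.ext (by
        rw [HH.coe_cjA, h2 t (congrArg Subtype.val ht) x (by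
          rw [← hHπ]; exact le_comap_map _ _ hx), mul_inv_cancel_right])
    refine hC fun t ht => ?_
    have h4 := congrArg (fun γ : MulAut (pCore p G) => (γ ⟨t, ht⟩ : G)) this
    simp only [HH.coe_cjA, MulAut.one_apply] at h4
    exact (mul_inv_eq_iff_eq_mul.1 h4).symm
  have h4 := H53.centralizer_pPrimeCore_le (H53.isPSolvable_quotient hG (pCore p G))
    (H3.pCore_quotient_pCore p G)
  refine pLengthLE_one_of_quotient_coprime (H3.pPrimeCore_eq_top_iff.1 (eq_top_iff.2 fun x _ =>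
    h4 ?_))
  rw [h3]; simp [mem_centralizer_iff]

theorem pLengthLE_one_of_char [Finite G] [Fact p.Prime] (hp : p ≠ 2) (hG : IsPSolvable p G)
    (h : ∀ K : Subgroup G, K.Characteristic →
      (∃ x ∈ K, x ≠ 1 ∧ x ^ p = 1) → ∀ y : G, y ^ p = 1 → y ∈ K) : PLengthLE p 1 G := by
  have hk : (Nat.card (QuotientGroup.mk' (pPrimeCore p G)).ker).Coprime p := by
    rw [QuotientGroup.ker_mk']; exact H3.pPrimeCore_coprime p G
  haveI := H3.pPrimeCore_characteristic p G
  refine pLengthLE_of_coprime_ker (QuotientGroup.mk'_surjective _) hk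
    (pLengthLE_one_of_char_core hp (H53.isPSolvable_quotient hG _)
      (H3.pPrimeCore_quotient_pPrimeCore p G) ?_)
  rintro K hK ⟨a, ha, ha1, hap⟩ b hb
  obtain ⟨x, hx, rfl⟩ := exists_lift_order_p (QuotientGroup.mk'_surjective _) hk hap
  obtain ⟨y, hy, rfl⟩ := exists_lift_order_p (QuotientGroup.mk'_surjective _) hk hb
  exact h _ (Subgroup.Characteristic.comap_quotient_mk hK)
    ⟨x, ha, fun h => ha1 (by rw [h, map_one]), hx⟩ y hy

end General

end Cfsg.Agent.H4
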