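import Mathlib
import Cfsg.Agent.H4.TransP

/-! Lemmas for the theorem on solvable groups with one class of involutions. -/

set_option autoImplicit false

namespace Cfsg.Agent.H4

open Subgroup
open scoped commutatorElement Pointwise

variable {G : Type*} [Group G]

theorem exists_abelian_card_le [Finite G] {Z : Subgroup G} [Z.Normal] {s : ℕ} [hs : Fact s.Prime]
    (hs2 : s ≠ 2) (k : ℕ) : ∀ D A : Subgroup G, IsPGroup 2 D → Z ≤ D →
      D ≤ centralizer (Z : Set G) → ⁅D, D⁆ ≤ Z → IsMulCommutative A → (∀ a ∈ A, a ^ s = 1) →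
      s ^ k ≤ Nat.card A → A ≤ normalizer (D : Set G) → A ≤ centralizer (Z : Set G) →
      A ⊓ centralizer (D : Set G) = ⊥ →
      ∃ W : Subgroup G, IsMulCommutative W ∧ Z ≤ W ∧ W ≤ D ∧ 2 ^ k * Nat.card Z ≤ Nat.card W := by
  induction k with
  | zero =>
    intro D A _ hZD hDZ _ _ _ _ _ _ _
    exact ⟨Z, le_centralizer_iff_isMulCommutative.1 (hZD.trans hDZ), le_rfl, hZD, by simp⟩
  | succ k ih =>
    intro D A hD hZD hDZ hDD hA hAs hcard hAD hAZ hfaith
    have hAp : IsPGroup s A := fun a => ⟨1, Subtype.ext (by simpa using hAs a a.2)⟩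
    have hcop : (Nat.card A).Coprime (Nat.card D) :=
      IsPGroup.coprime_card_of_ne s 2 hs2 A D hAp hD
    have hne : ¬ D ≤ centralizer (A : Set G) := fun h => by
      rw [inf_eq_left.2 (le_centralizer_iff.1 h)] at hfaith
      rw [hfaith, card_bot] at hcard
      exact absurd hcard (not_le.2 (Nat.one_lt_pow (by omega) hs.out.one_lt))
    obtain ⟨B, hBA, ⟨a, ha, hBa⟩, hB⟩ : ∃ B ≤ A, (∃ a ∈ A, B ⊔ zpowers a = A) ∧
        ¬ D ⊓ centralizer (B : Set G) ≤ centralizer (A : Set G) := by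
      by_contra h
      push Not at h
      exact hne (le_of_centralizer_cocyclic_le hAD hcop h)
    have hcB : s ^ k ≤ Nat.card B := by
      have h1 := H3.card_sup_dvd_of_le_normalizer (H := zpowers a) (N := B)
        ((zpowers_le.2 ha).trans ((le_normalizer_of_le_of_isMulCommutative hBA).trans
          (centralizer_le_normalizer _)))
      rw [sup_comm, hBa, Nat.card_zpowers] at h1
      have h2 := Nat.le_of_dvd (Nat.mul_pos (orderOf_pos a) Nat.card_pos) h1
      have h3 := Nat.le_of_dvd hs.out.pos (orderOf_dvd_of_pow_eq_one (hAs a ha))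
      have h4 : s * s ^ k ≤ s * Nat.card B := by
        rw [← pow_succ']
        exact hcard.trans (h2.trans (Nat.mul_le_mul_right _ h3))
      exact Nat.le_of_mul_le_mul_left h4 hs.out.pos
    obtain ⟨v, hv, hvA⟩ := SetLike.not_le_iff_exists.1 hB
    have hBD := hBA.trans hAD
    have hD'D : ⁅D, B⁆ ⊔ Z ≤ D := sup_le (commutator_le_left_of_le_normalizer hBD) hZD
    haveI : IsMulCommutative B := le_centralizer_iff_isMulCommutative.1
      (hBA.trans (le_normalizer_of_le_of_isMulCommutative hBA))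
    obtain ⟨W, hW, hZW, hWD, hWc⟩ := ih (⁅D, B⁆ ⊔ Z) B (hD.to_le hD'D) le_sup_right
      (hD'D.trans hDZ) ((commutator_mono hD'D hD'D).trans hDD) inferInstance
      (fun b hb => hAs b (hBA hb)) hcB
      (le_normalizer_sup (le_normalizer_commutator hBD le_normalizer)
        (by rw [normalizer_eq_top]; exact le_top)) (hBA.trans hAZ) (by
        rw [eq_bot_iff, ← hfaith]
        rintro b ⟨hb, hb'⟩
        have hbB := zpowers_le.2 hb
        refine ⟨hBA hb, le_centralizer_iff.1 (le_centralizer_of_commutator_le_centralizer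
          (hbB.trans hBD) (coprime_of_le_left hcop (hbB.trans hBA))
          (Or.inr (isSolvable_of_isPGroup hD)) ?_) (mem_zpowers b)⟩
        exact (commutator_mono le_rfl hbB).trans (le_centralizer_iff.1
          ((zpowers_le.2 hb').trans (H3.centralizer_anti le_sup_left))))
    have hvc : v ∈ centralizer ((⁅D, B⁆ ⊔ Z : Subgroup G) : Set G) := by
      rw [H3.centralizer_sup]
      refine ⟨?_, hDZ hv.1⟩
      have := commutator_commutator_eq_bot_of_rotate (H₁ := D) (H₂ := B) (H₃ := zpowers v) (by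
        rw [commutator_eq_bot_iff_le_centralizer.2 (le_centralizer_iff.1 (zpowers_le.2 hv.2)),
          commutator_bot_left]) (by
        rw [commutator_eq_bot_iff_le_centralizer]
        exact ((commutator_mono (zpowers_le.2 hv.1) le_rfl).trans hDD).trans
          (le_centralizer_iff.1 (hBA.trans hAZ)))
      exact le_centralizer_iff.1 (commutator_eq_bot_iff_le_centralizer.1 this) (mem_zpowers v)
    have hvD' : v ∉ ⁅D, B⁆ ⊔ Z := fun h => by
      haveI : IsMulCommutative (D.map (QuotientGroup.mk' Z)) := by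
        rw [← le_centralizer_iff_isMulCommutative, ← commutator_eq_bot_iff_le_centralizer,
          ← map_commutator, Subgroup.map_eq_bot_iff, QuotientGroup.ker_mk']
        exact hDD
      have h1 := centralizer_inf_commutator_eq_bot (A := B.map (QuotientGroup.mk' Z))
        (V := D.map (QuotientGroup.mk' Z)) ((map_mono hBD).trans (le_normalizer_map _))
        (((coprime_of_le_left hcop hBA).coprime_dvd_left (card_map_dvd _ _)).coprime_dvd_right
          (card_map_dvd _ _))
      have h2 : QuotientGroup.mk' Z v ∈ centralizer ((B.map (QuotientGroup.mk' Z) :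
          Subgroup (G ⧸ Z)) : Set (G ⧸ Z)) ⊓ ⁅D.map (QuotientGroup.mk' Z),
          B.map (QuotientGroup.mk' Z)⁆ := by
        refine mem_inf.2 ⟨?_, ?_⟩
        · rintro _ ⟨b, hb, rfl⟩
          rw [← map_mul, ← map_mul, hv.2 b hb]
        · have := mem_map_of_mem (QuotientGroup.mk' Z) h
          rwa [Subgroup.map_sup, map_commutator, QuotientGroup.map_mk'_self, sup_bot_eq] at this
      rw [h1, mem_bot] at h2
      exact hvA (le_centralizer_iff.1 hAZ ((QuotientGroup.eq_one_iff v).1 h2))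
    refine ⟨W ⊔ zpowers v, H3.isMulCommutative_sup_zpowers (H3.centralizer_anti hWD hvc),
      hZW.trans le_sup_left, sup_le (hWD.trans hD'D) (zpowers_le.2 hv.1), ?_⟩
    have hlt : W < W ⊔ zpowers v := lt_of_le_of_ne le_sup_left fun h =>
      hvD' (hWD (h ▸ mem_sup_right (mem_zpowers v)))
    obtain ⟨m, hm⟩ := card_dvd_of_le hlt.le
    have h3 := HH.card_lt_of_lt hlt
    have h4 : 2 ≤ m := by
      rw [hm] at h3
      by_contra h
      interval_cases m <;> omega
    rw [hm, pow_succ]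
    nlinarith

theorem pow_card_le_card_closure [Finite G] {ι : Type*} [DecidableEq ι] {s : ℕ} (hs : s.Prime)
    (hs2 : s ≠ 2) (U : Subgroup G) (y : ι → G) (hc : ∀ i j, y i * y j = y j * y i)
    (hy : ∀ i, orderOf (y i) = s)
    (hU : ∀ u ∈ U, ∀ i, u * y i * u⁻¹ = y i ∨ u * y i * u⁻¹ = (y i)⁻¹)
    (hd : ∀ i j, i ≠ j → ∃ u ∈ U, (u * y i * u⁻¹ = y i ∧ u * y j * u⁻¹ = (y j)⁻¹) ∨
      (u * y i * u⁻¹ = (y i)⁻¹ ∧ u * y j * u⁻¹ = y j)) (S : Finset ι) :
    (∀ j ∉ S, y j ∉ closure (y '' S)) ∧ s ^ S.card ≤ Nat.card (closure (y '' S)) := by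
  induction S using Finset.induction_on with
  | empty =>
    refine ⟨fun j _ h => ?_, by simp⟩
    have h1 : y j = 1 := by simpa using h
    have := hy j
    rw [h1, orderOf_one] at this
    exact hs.one_lt.ne this
  | insert i S hi ih =>
    set A := closure (y '' S) with hA
    have e : closure (y '' (insert i S : Finset ι)) = A ⊔ zpowers (y i) := by
      rw [Finset.coe_insert, Set.image_insert_eq, Set.insert_eq, Subgroup.closure_union, sup_comm,
        zpowers_eq_closure]
    have hcA : ∀ j, A ≤ centralizer (zpowers (y j) : Set G) := fun j =>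
      (closure_le _).2 (by
        rintro _ ⟨l, -, rfl⟩ _ ⟨n, rfl⟩
        exact (Commute.zpow_left (hc j l) n :))
    have hn : zpowers (y i) ≤ normalizer (A : Set G) :=
      (le_centralizer_iff.1 (hcA i)).trans (centralizer_le_normalizer _)
    have hUA : ∀ u ∈ U, ∀ a ∈ A, u * a * u⁻¹ ∈ A := fun u hu a ha => by
      have : A.map (MulAut.conj u).toMonoidHom ≤ A := by
        rw [hA, MonoidHom.map_closure, closure_le]
        rintro _ ⟨_, ⟨l, hl, rfl⟩, rfl⟩
        have h1 : y l ∈ closure (y '' S) := subset_closure ⟨l, hl, rfl⟩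
        change u * y l * u⁻¹ ∈ closure (y '' S)
        rcases hU u hu l with h | h
        · rw [h]; exact h1
        · rw [h]; exact inv_mem h1
      exact this ⟨a, ha, rfl⟩
    rw [e]
    refine ⟨fun j hj h => ?_, ?_⟩
    · rw [Finset.mem_insert, not_or] at hj
      obtain ⟨a, ha, _, ⟨m, rfl⟩, h1⟩ := (mem_sup_iff_of_le_normalizer hn).1 h
      have h2 : y j ^ 2 ∈ A := by
        obtain ⟨u, hu, h3⟩ := hd i j (Ne.symm hj.1)
        have h4 : u * y j * u⁻¹ = u * a * u⁻¹ * (u * y i * u⁻¹) ^ m := by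
          rw [← h1, conj_zpow]; group
        rcases h3 with ⟨h5, h6⟩ | ⟨h5, h6⟩
        · rw [h5, h6] at h4
          have : y j ^ 2 = a * (u * a * u⁻¹)⁻¹ := by
            rw [sq]
            nth_rewrite 2 [← inv_inv (y j)]
            rw [h4]
            nth_rewrite 1 [← h1]
            group
          rw [this]
          exact mul_mem ha (inv_mem (hUA u hu a ha))
        · rw [h5, h6] at h4
          have h7 := hcA i (hUA u hu a ha) _ (zpow_mem_zpowers (y i) m)
          have : y j ^ 2 = a * (u * a * u⁻¹) := by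
            rw [sq]
            nth_rewrite 2 [h4]
            nth_rewrite 1 [← h1]
            rw [mul_assoc, ← mul_assoc (y i ^ m), h7]
            group
          rw [this]
          exact mul_mem ha (hUA u hu a ha)
      obtain ⟨n, hn⟩ := exists_pow_eq_self_of_coprime (x := y j) (n := 2)
        (by rw [hy]; exact (Nat.coprime_primes Nat.prime_two hs).2 hs2.symm)
      exact ih.1 j hj.2 (hn ▸ pow_mem h2 n)
    · rw [card_sup_of_le_normalizer hn, Nat.card_zpowers, hy, Finset.card_insert_of_notMem hi,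
        pow_succ]
      · exact Nat.mul_le_mul_right _ ih.2
      · rw [disjoint_iff]
        have h1 := card_dvd_of_le (inf_le_right : A ⊓ zpowers (y i) ≤ _)
        rw [Nat.card_zpowers, hy] at h1
        rcases (Nat.dvd_prime hs).1 h1 with h | h
        · exact card_eq_one.1 h
        · have := eq_of_le_of_card_ge (inf_le_right : A ⊓ zpowers (y i) ≤ _)
            (by rw [h, Nat.card_zpowers, hy])
          exact absurd (inf_eq_right.1 this (mem_zpowers _)) (ih.1 i hi)

theorem eq_one_of_sq_of_coprime {H : Subgroup G} (hH : (Nat.card H).Coprime 2) {c : G}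
    (hc : c ∈ H) (h : c = c⁻¹) : c = 1 := by
  have h1 : orderOf c ∣ 2 := orderOf_dvd_of_pow_eq_one (by
    rw [sq]; nth_rewrite 2 [h]; exact mul_inv_cancel c)
  exact orderOf_eq_one_iff.1 (Nat.eq_one_of_dvd_coprimes hH (orderOf_dvd_natCard H hc) h1)

theorem exists_inverted [Finite G] {H U K : Subgroup G} (hH : (Nat.card H).Coprime 2)
    (hs : Group.IsSolvable H) (hU : IsPGroup 2 U) (hUH : U ≤ normalizer (H : Set G))
    (hKH : K ≤ normalizer (H : Set G)) (hKU : K ≤ normalizer (U : Set G))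
    (hsq : ∀ u ∈ U, u ^ 2 ∈ centralizer (H : Set G)) (hcm : ⁅U, U⁆ ≤ centralizer (H : Set G))
    (hne : ¬ U ≤ centralizer (H : Set G)) :
    ∃ M ≤ H, K ≤ normalizer (M : Set G) ∧
      (∀ a ∈ M, ∀ b ∈ M, ∀ u ∈ U, u * a * u⁻¹ = a → u * b * u⁻¹ = b⁻¹ → a * b = b * a) ∧
      ∃ y ∈ M, (orderOf y).Prime ∧ (∀ u ∈ U, u * y * u⁻¹ = y ∨ u * y * u⁻¹ = y⁻¹) ∧
        ∃ x ∈ U, x * y * x⁻¹ = y⁻¹ := by
  obtain ⟨M, ⟨hMH, hUM, hKM, hMne⟩, hmin⟩ := exists_minimal_of_wellFoundedLT
    (fun M : Subgroup G => M ≤ H ∧ U ≤ normalizer (M : Set G) ∧ K ≤ normalizer (M : Set G) ∧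
      ¬ U ≤ centralizer (M : Set G)) ⟨H, le_rfl, hUH, hKH, hne⟩
  have hmin' : ∀ N < M, U ≤ normalizer (N : Set G) → K ≤ normalizer (N : Set G) →
      U ≤ centralizer (N : Set G) := fun N hN h1 h2 => by
    by_contra h
    exact hN.not_ge (hmin ⟨hN.le.trans hMH, h1, h2, h⟩ hN.le)
  have hM0 : M ≠ ⊥ := fun h => hMne (by rw [h]; exact le_centralizer_iff.1 bot_le)
  have hMs := isSolvable_of_le hMH hs
  have h1 : U ≤ centralizer ((⁅M, M⁆ : Subgroup G) : Set G) := by
    refine hmin' _ ?_ (le_normalizer_commutator hUM hUM) (le_normalizer_commutator hKM hKM)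
    haveI := (nontrivial_iff_ne_bot M).2 hM0
    have := Subgroup.map_lt_map_iff_of_injective (f := M.subtype) M.subtype_injective |>.2
      (IsSolvable.commutator_lt_top_of_nontrivial M)
    rwa [map_subtype_commutator, ← MonoidHom.range_eq_map, range_subtype] at this
  have hcop : (Nat.card U).Coprime (Nat.card M) :=
    coprime_of_le_right (H3.coprime_card_of_isPGroup hU hH.symm) hMH
  have h2 : ⁅M, U⁆ = M := by
    by_contra h
    exact hMne (le_centralizer_iff.1 (le_centralizer_of_commutator_le_centralizer hUM hcop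
      (Or.inr hMs) (le_centralizer_iff.1 (hmin' _
        (lt_of_le_of_ne (commutator_le_left_of_le_normalizer hUM) h)
        (le_normalizer_commutator hUM le_normalizer) (le_normalizer_commutator hKM hKU)))))
  have h3 : M ≤ centralizer ((⁅M, M⁆ : Subgroup G) : Set G) := by
    have := commutator_commutator_eq_bot_of_rotate (H₁ := M) (H₂ := U) (H₃ := ⁅M, M⁆) (by
      rw [commutator_eq_bot_iff_le_centralizer.2 h1, commutator_bot_left]) (by
      rw [commutator_eq_bot_iff_le_centralizer]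
      exact (commutator_mono (commutator_le_self M) le_rfl).trans (le_centralizer_iff.1 h1))
    rwa [h2, commutator_eq_bot_iff_le_centralizer] at this
  have hfix : ∀ a ∈ M, ∀ b ∈ M, ∀ u ∈ U, ⁅u * a * u⁻¹, u * b * u⁻¹⁆ = ⁅a, b⁆ :=
    fun a ha b hb u hu => by
      rw [← conjugate_commutatorElement, ← h1 hu _ (commutator_mem_commutator ha hb),
        mul_inv_cancel_right]
  have hinv : ∀ u ∈ U, ∀ h ∈ H, u * (u * h * u⁻¹) * u⁻¹ = h := fun u hu h hh => by
    have := hsq u hu h hh
    calc u * (u * h * u⁻¹) * u⁻¹ = (u ^ 2 * h) * (u ^ 2)⁻¹ := by rw [sq]; group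
      _ = h := by rw [← this, mul_inv_cancel_right]
  have hcc : ∀ u ∈ U, ∀ w ∈ U, ∀ h ∈ H,
      u * (w * h * w⁻¹) * u⁻¹ = w * (u * h * u⁻¹) * w⁻¹ := fun u hu w hw h hh => by
    have := hcm (commutator_mem_commutator (inv_mem hu) (inv_mem hw)) h hh
    calc u * (w * h * w⁻¹) * u⁻¹ = w * u * (⁅u⁻¹, w⁻¹⁆ * h) * w⁻¹ * u⁻¹ := by
          rw [commutatorElement_def]; group
      _ = _ := by rw [← this, commutatorElement_def]; group
  refine ⟨M, hMH, hKM, fun a ha b hb u hu e1 e2 => ?_, ?_⟩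
  · have e3 := hfix a ha b hb u hu
    have e4 : ⁅a, b⁻¹⁆ = ⁅a, b⁆⁻¹ := by
      have := h3 hb _ (inv_mem (commutator_mem_commutator ha hb))
      calc ⁅a, b⁻¹⁆ = b⁻¹ * (⁅a, b⁆⁻¹ * b) := by simp only [commutatorElement_def]; group
        _ = _ := by rw [this, inv_mul_cancel_left]
    rw [e1, e2, e4] at e3
    exact commutatorElement_eq_one_iff_mul_comm.1 (eq_one_of_sq_of_coprime hH
      (hMH (commutator_le_self M (commutator_mem_commutator ha hb))) e3.symm)
  obtain ⟨E, ⟨hEU, hE⟩, hmax⟩ := exists_maximal_of_wellFoundedGT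
    (fun E : Subgroup G => E ≤ U ∧
      ¬ U ≤ centralizer ((M ⊓ centralizer (E : Set G) : Subgroup G) : Set G))
    ⟨⊥, bot_le, by rwa [inf_eq_left.2 (le_centralizer_iff.1 bot_le)]⟩
  obtain ⟨x, hx, hxc⟩ := SetLike.not_le_iff_exists.1 hE
  obtain ⟨a, ha, hax⟩ : ∃ a ∈ M ⊓ centralizer (E : Set G), a * x ≠ x * a := by
    by_contra h
    push Not at h
    exact hxc h
  have hconj : ∀ u ∈ U, ∀ b ∈ M ⊓ centralizer (E : Set G),
      u * b * u⁻¹ ∈ M ⊓ centralizer (E : Set G) := fun u hu b hb => by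
    refine mem_inf.2 ⟨conj_mem_of_mem_normalizer (hUM hu) hb.1, fun e he => ?_⟩
    have := hcc e (hEU he) u hu b (hMH hb.1)
    rw [hb.2 e he, mul_inv_cancel_right] at this
    exact mul_inv_eq_iff_eq_mul.1 this
  set y := a⁻¹ * (x * a * x⁻¹) with hy
  have hyM : y ∈ M ⊓ centralizer (E : Set G) := mul_mem (inv_mem ha) (hconj x hx a ha)
  have hy1 : y ≠ 1 := fun h => hax (by
    rw [hy, inv_mul_eq_one, eq_mul_inv_iff_mul_eq] at h; exact h)
  have hxy : x * y * x⁻¹ = y⁻¹ := by
    calc x * y * x⁻¹ = (x * a * x⁻¹)⁻¹ * (x * (x * a * x⁻¹) * x⁻¹) := by rw [hy]; group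
      _ = y⁻¹ := by rw [hinv x hx a (hMH ha.1), hy]; group
  have hUy : ∀ u ∈ U, u * y * u⁻¹ = y ∨ u * y * u⁻¹ = y⁻¹ := fun u hu => by
    by_cases huE : u ∈ E
    · exact Or.inl (by rw [hyM.2 u huE, mul_inv_cancel_right])
    right
    have h4 : U ≤ centralizer ((M ⊓ centralizer ((E ⊔ zpowers u : Subgroup G) : Set G) :
        Subgroup G) : Set G) := by
      by_contra h
      exact huE (hmax ⟨sup_le hEU (zpowers_le.2 hu), h⟩ le_sup_left (mem_sup_right (mem_zpowers u)))
    have hy' := hconj u hu y hyM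
    have h5 : y * (u * y * u⁻¹) = (u * y * u⁻¹) * y := by
      have e3 := hfix y hyM.1 _ hy'.1 u hu
      rw [hinv u hu y (hMH hyM.1), ← commutatorElement_inv] at e3
      exact commutatorElement_eq_one_iff_mul_comm.1 (eq_one_of_sq_of_coprime hH
        (hMH (commutator_le_self M (commutator_mem_commutator hyM.1 hy'.1))) e3.symm)
    have h6 : y * (u * y * u⁻¹) ∈ M ⊓ centralizer ((E ⊔ zpowers u : Subgroup G) : Set G) := by
      rw [H3.centralizer_sup]
      refine ⟨(mul_mem hyM hy').1, (mul_mem hyM hy').2, ?_⟩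
      rintro _ ⟨n, rfl⟩
      refine (Commute.zpow_left (a := u) ?_ n :)
      have : u * (y * (u * y * u⁻¹)) * u⁻¹ = y * (u * y * u⁻¹) := by
        calc u * (y * (u * y * u⁻¹)) * u⁻¹ = (u * y * u⁻¹) * (u * (u * y * u⁻¹) * u⁻¹) := by group
          _ = _ := by rw [hinv u hu y (hMH hyM.1), h5]
      exact mul_inv_eq_iff_eq_mul.1 this
    have h7 : x * (y * (u * y * u⁻¹)) * x⁻¹ = (y * (u * y * u⁻¹))⁻¹ := by
      calc x * (y * (u * y * u⁻¹)) * x⁻¹ = (x * y * x⁻¹) * (x * (u * y * u⁻¹) * x⁻¹) := by group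
        _ = ((u * y * u⁻¹) * y)⁻¹ := by rw [hcc x hx u hu y (hMH hyM.1), hxy]; group
        _ = _ := by rw [h5]
    rw [← h4 hx _ h6, mul_inv_cancel_right] at h7
    exact eq_inv_of_mul_eq_one_right (eq_one_of_sq_of_coprime hH (hMH h6.1) h7)
  have h8 : orderOf y ≠ 1 := fun h => hy1 (orderOf_eq_one_iff.1 h)
  refine ⟨y ^ (orderOf y / (orderOf y).minFac), pow_mem hyM.1 _, ?_, fun u hu => ?_, x, hx, ?_⟩
  · rw [orderOf_pow_orderOf_div (orderOf_pos y).ne' (Nat.minFac_dvd _)]
    exact Nat.minFac_prime h8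
  · rcases hUy u hu with h | h
    · exact Or.inl (by rw [← conj_pow, h])
    · exact Or.inr (by rw [← conj_pow, h, inv_pow])
  · rw [← conj_pow, hxy, inv_pow]

end Cfsg.Agent.H4
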