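import Mathlib
import Cfsg.Agent.H4.ShawLem
import Cfsg.Agent.H24.PSolv

/-! Solvable groups with one class of involutions have `2`-length one (Thompson, Shaw). -/

set_option autoImplicit false

namespace Cfsg.Agent.H4

open Subgroup
open scoped commutatorElement Pointwise

variable {G : Type*} [Group G]

theorem mul_pow_four {C : Subgroup G} (h1 : ∀ x ∈ C, x ^ 2 ∈ centralizer (C : Set G))
    (h2 : ⁅C, C⁆ ≤ centralizer (C : Set G)) :
    (∀ x ∈ C, ∀ y ∈ C, ⁅x, y⁆ ^ 2 = 1) ∧ ∀ x ∈ C, ∀ y ∈ C, (x * y) ^ 4 = x ^ 4 * y ^ 4 := by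
  have h3 : ∀ x ∈ C, ∀ y ∈ C, ⁅x, y⁆ ^ 2 = 1 := fun x hx y hy => by
    have e1 := h2 (commutator_mem_commutator hx hy) x hx
    calc ⁅x, y⁆ ^ 2 = (x * ⁅x, y⁆) * x⁻¹ * ⁅x, y⁆ := by rw [e1, sq]; group
      _ = x ^ 2 * y * (x ^ 2)⁻¹ * y⁻¹ := by simp only [commutatorElement_def, sq]; group
      _ = 1 := by rw [← h1 x hx y hy]; group
  refine ⟨h3, fun x hx y hy => ?_⟩
  have hc := commutator_mem_commutator (inv_mem hx) hy
  have e1 : (x * y) ^ 2 = x ^ 2 * ⁅x⁻¹, y⁆ * y ^ 2 := by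
    simp only [commutatorElement_def, sq]; group
  have c1 : Commute (x ^ 2) ⁅x⁻¹, y⁆ := (h1 x hx _ (commutator_le_self C hc)).symm
  have c2 : Commute (x ^ 2 * ⁅x⁻¹, y⁆) (y ^ 2) :=
    h1 y hy _ (mul_mem (pow_mem hx 2) (commutator_le_self C hc))
  rw [show 4 = 2 * 2 from rfl, pow_mul, e1, c2.mul_pow, c1.mul_pow, h3 _ (inv_mem hx) _ hy, mul_one,
    ← pow_mul, ← pow_mul]

theorem exists_exp_four [Finite G] {T Z : Subgroup G} [T.Normal] (hT : IsPGroup 2 T)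
    (hZ : ∀ x, x ∈ Z ↔ x ^ 2 = 1) (hZT : Z ≤ T ⊓ centralizer (T : Set G)) :
    ∃ D ≤ T, D.Normal ∧ Z ≤ D ∧ ⁅D, D⁆ ≤ Z ∧ (∀ x ∈ D, x ^ 2 ∈ Z) ∧
      ∀ a : G, (orderOf a).Coprime 2 → a ∈ centralizer (Z : Set G) → a ∈ centralizer (D : Set G) →
        a ∈ centralizer (T : Set G) := by
  obtain ⟨C, hCc, hC0, hC1, hC2, -⟩ := H7.exists_critical hT
  haveI hn := H3.normal_map_subtype_of_characteristic T C
  set C' := C.map T.subtype with hC'
  have h1 : ∀ x ∈ C', x ^ 2 ∈ centralizer (C' : Set G) := by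
    rintro _ ⟨x, hx, rfl⟩ _ ⟨t, ht, rfl⟩
    exact congrArg Subtype.val (hC0 x hx t ht)
  have h2 : ⁅C', C'⁆ ≤ centralizer (C' : Set G) := by
    rw [← map_commutator]
    rintro _ ⟨y, hy, rfl⟩ _ ⟨t, ht, rfl⟩
    exact congrArg Subtype.val ((hC1 (commutator_mono le_rfl le_top hy)).2 t ht)
  obtain ⟨h3, h4⟩ := mul_pow_four h1 h2
  let D : Subgroup G :=
    { carrier := {x | x ∈ C' ∧ x ^ 4 = 1}
      one_mem' := ⟨one_mem _, one_pow _⟩
      mul_mem' := fun {a b} ha hb => ⟨mul_mem ha.1 hb.1, by rw [h4 a ha.1 b hb.1, ha.2, hb.2, mul_one]⟩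
      inv_mem' := fun {a} ha => ⟨inv_mem ha.1, by rw [inv_pow, ha.2, inv_one]⟩ }
  refine ⟨D, fun x hx => map_subtype_le C hx.1,
    ⟨fun x hx g => ⟨hn.conj_mem x hx.1 g, by rw [conj_pow, hx.2]; simp⟩⟩, fun z hz => ⟨?_, ?_⟩,
    commutator_le.2 fun x hx y hy => (hZ _).2 (h3 x hx.1 y hy.1),
    fun x hx => (hZ _).2 (by rw [← pow_mul]; exact hx.2), fun a ha haZ haD => ?_⟩
  · exact ⟨⟨z, (hZT hz).1⟩, hC2 fun t _ => Subtype.ext ((hZT hz).2 t t.2), rfl⟩
  · rw [show 4 = 2 * 2 from rfl, pow_mul, (hZ z).1 hz, one_pow]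
  have hC'p : IsPGroup 2 C' := (hT.to_subgroup C).map _
  have hcop : (Nat.card (zpowers a)).Coprime (Nat.card C') :=
    (H3.coprime_card_of_isPGroup hC'p (by rw [Nat.card_zpowers]; exact ha.symm)).symm
  haveI : IsMulCommutative (C' ⊓ centralizer (C' : Set G) : Subgroup G) :=
    le_centralizer_iff_isMulCommutative.1 (inf_le_right.trans (H3.centralizer_anti inf_le_left))
  have h5 : C' ⊓ centralizer (C' : Set G) ≤ centralizer (zpowers a : Set G) := by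
    refine le_centralizer_of_prime_order (by rw [normalizer_eq_top]; exact le_top)
      (coprime_of_le_right hcop inf_le_left) fun v hv hp => ?_
    obtain ⟨k, hk⟩ := hC'p ⟨v, hv.1⟩
    have h6 : orderOf v ∣ 2 ^ k := orderOf_dvd_of_pow_eq_one (congrArg Subtype.val hk)
    have h7 := (Nat.prime_dvd_prime_iff_eq hp Nat.prime_two).1 (hp.dvd_of_dvd_pow h6)
    exact le_centralizer_iff.1 (zpowers_le.2 haZ) ((hZ v).2 (h7 ▸ pow_orderOf_eq_one v))
  have h6 : C' ≤ centralizer (zpowers a : Set G) := by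
    refine le_centralizer_of_commutator_le_centralizer (by rw [normalizer_eq_top]; exact le_top)
      hcop (Or.inr (isSolvable_of_isPGroup hC'p))
      (le_trans ?_ (le_centralizer_iff.1 (zpowers_le.2 haD)))
    refine commutator_le.2 fun v hv b hb => ?_
    have h7 : b * v⁻¹ * b⁻¹ ∈ C' := hn.conj_mem _ (inv_mem hv) b
    have e : ⁅v, b⁆ = v * (b * v⁻¹ * b⁻¹) := by rw [commutatorElement_def]; group
    rw [e]
    refine ⟨mul_mem hv h7, ?_⟩
    have h8 := h5 (pow_mem (mem_inf.2 ⟨pow_mem hv 2, h1 v hv⟩) 2) b hb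
    rw [← pow_mul] at h8
    rw [h4 v hv _ h7, conj_pow, inv_pow, mul_assoc b, ← mul_inv_rev, h8]
    group
  have han : a ∈ normalizer (T : Set G) := by rw [normalizer_eq_top]; trivial
  have h7 := H7.aut_eq_one_of_fixes_self_centralizing hT hC2 (HH.cjA han) (by
    refine Nat.Coprime.coprime_dvd_left (orderOf_dvd_of_pow_eq_one ?_) ha
    rw [← HH.cjA_pow]
    ext t
    rw [HH.coe_cjA, pow_orderOf_eq_one]
    simp) fun t ht => Subtype.ext (by
      rw [HH.coe_cjA]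
      exact mul_inv_eq_iff_eq_mul.2 (h6 ⟨t, ht, rfl⟩ a (mem_zpowers a)))
  intro t ht
  have h8 := congrArg (fun γ : MulAut T => (γ ⟨t, ht⟩ : G)) h7
  simp only [HH.coe_cjA, MulAut.one_apply] at h8
  exact (mul_inv_eq_iff_eq_mul.1 h8).symm

theorem card_le_sq_of_sq_mem [Finite G] {W Z : Subgroup G} [IsMulCommutative W]
    (hZ : ∀ x, x ∈ Z ↔ x ^ 2 = 1) (h : ∀ x ∈ W, x ^ 2 ∈ Z) :
    Nat.card W ≤ Nat.card Z * Nat.card Z := by
  let f : W →* G := MonoidHom.mk' (fun x => (x : G) ^ 2) fun a b =>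
    (Commute.mul_pow (H53.comm_of_mem inferInstance a.2 b.2) 2 :)
  rw [← f.ker.card_mul_index, index_ker]
  refine Nat.mul_le_mul ?_ (card_le_of_le ?_)
  · rw [← H3.card_map_subtype]
    refine card_le_of_le ?_
    rintro _ ⟨x, hx, rfl⟩
    exact (hZ _).2 hx
  · rintro _ ⟨x, rfl⟩
    exact h x x.2

theorem mem_centralizer_of_transitive [Finite G] (hG : Group.IsSolvable G) {T Z : Subgroup G}
    [T.Normal] [Z.Normal] (hT : IsPGroup 2 T) (hZ : ∀ x, x ∈ Z ↔ x ^ 2 = 1) (hZT : Z ≤ T)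
    (hnorm : ∀ N : Subgroup G, N.Normal → (∃ j ∈ N, j ≠ 1 ∧ j ^ 2 = 1) → Z ≤ N)
    {g : G} {k : ℕ} (hg : g ^ 2 ^ k = 1) : g ∈ centralizer (Z : Set G) := by
  by_contra hne
  haveI : Nontrivial (G ⧸ centralizer (Z : Set G)) :=
    ⟨⟨_, _, fun h => hne ((QuotientGroup.eq_one_iff g).1 h)⟩⟩
  obtain ⟨r, hr, hr0⟩ : ∃ r : ℕ, r.Prime ∧ pCore r (G ⧸ centralizer (Z : Set G)) ≠ ⊥ := by
    by_contra h
    push Not at h
    exact H3.fitting_ne_bot _ (H3.fitting_eq_bot_iff.2 h)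
  haveI := Fact.mk hr
  have hr2 : r ≠ 2 := by
    rintro rfl
    refine hr0 (pCore_quotient_centralizer_eq_bot (hT.to_le hZT) fun K hK hKZ => ?_)
    refine or_iff_not_imp_left.2 fun h => le_antisymm hKZ (hnorm K hK ?_)
    exact exists_order_p_of_ne_bot (hT.to_le (hKZ.trans hZT)) h
  obtain ⟨P, hP, hPπ, -, hN⟩ := exists_frattini_cover
    (QuotientGroup.mk'_surjective (centralizer (Z : Set G))) _ (H3.pCore_isPGroup r _)
  obtain ⟨g', hg', e⟩ : QuotientGroup.mk' (centralizer (Z : Set G)) g ∈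
      (normalizer (P : Set G)).map (QuotientGroup.mk' _) := hN ▸ mem_top _
  obtain ⟨b, hb, hbg, j, hj⟩ := H51.exists_pelt_lift (p := 2) _ g' (k := k)
    (by rw [e, ← map_pow, hg, map_one])
  have hb1 : b ≠ 1 := fun h => hne ((QuotientGroup.eq_one_iff g).1 (by
    rw [← QuotientGroup.mk'_apply, ← e, ← hbg, h, map_one]))
  obtain ⟨z, hz1, hz2, hz⟩ := exists_order_p_centralizer hT (fun x hx => hZT ((hZ x).2 hx))
    (H3.coprime_card_of_isPGroup hP ((Nat.coprime_primes hr Nat.prime_two).2 hr2)) hj hb1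
    (zpowers_le.2 hg' hb)
  have h1 := hnorm (centralizer (((pCore r (G ⧸ centralizer (Z : Set G))).comap
    (QuotientGroup.mk' _) : Subgroup G) : Set G)) inferInstance ⟨z, by
      rw [← hPπ, comap_map_eq, QuotientGroup.ker_mk', H3.centralizer_sup]
      exact ⟨hz, le_centralizer_iff.1 le_rfl ((hZ z).2 hz2)⟩, hz1, hz2⟩
  refine hr0 ?_
  rw [← hPπ, Subgroup.map_eq_bot_iff, QuotientGroup.ker_mk']
  exact (le_comap_map _ _).trans (hPπ ▸ le_centralizer_iff.1 h1)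

theorem exists_odd_cover [Finite G] (hG : Group.IsSolvable G) {C : Subgroup G} [C.Normal]
    (hC : ∀ (g : G) (k : ℕ), g ^ 2 ^ k = 1 → g ∈ C) (L : Subgroup G) :
    ∃ K ≤ L, (Nat.card K).Coprime 2 ∧ ∀ l ∈ L, ∃ k ∈ K, k⁻¹ * l ∈ C := by
  obtain ⟨K, hK⟩ := H2.exists_isPiHall {2}ᶜ L
  have h1 : C.index.Coprime 2 := coprime_of_expLE_zero (G := G ⧸ C) fun a k ha => by
    obtain ⟨g, rfl⟩ := QuotientGroup.mk'_surjective _ a
    obtain ⟨b, -, hb, j, hj⟩ := H51.exists_pelt_lift _ g ha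
    rw [pow_zero, pow_one, ← hb]
    exact (QuotientGroup.eq_one_iff b).2 (hC b j hj)
  have h2 : C.subgroupOf L ⊔ K = ⊤ := by
    rw [← index_eq_one, Nat.eq_one_iff_not_exists_prime_dvd]
    intro q hq hd
    by_cases hq2 : q = 2
    · subst hq2
      exact (Nat.Prime.coprime_iff_not_dvd hq).1 h1.symm
        ((hd.trans (index_dvd_of_le le_sup_left)).trans (relIndex_dvd_index_of_normal C L))
    · exact hK.2 q hq hq2 (hd.trans (index_dvd_of_le le_sup_right))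
  refine ⟨K.map L.subtype, map_subtype_le K, ?_, fun l hl => ?_⟩
  · rw [H3.card_map_subtype]
    exact ((Nat.Prime.coprime_iff_not_dvd Nat.prime_two).2 fun h => hK.1 2 Nat.prime_two h rfl).symm
  · obtain ⟨k, hk, c, hc, e⟩ := (mem_sup_iff_of_le_normalizer' (K := C.subgroupOf L) (A := K)
      (by rw [normalizer_eq_top]; exact le_top)).1 (h2 ▸ mem_top (⟨l, hl⟩ : L))
    refine ⟨k, ⟨k, hk, rfl⟩, ?_⟩
    rw [show l = k * c from (congrArg Subtype.val e).symm, inv_mul_cancel_left]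
    exact hc

theorem shaw_core [Finite G] (hG : Group.IsSolvable G) (hO : pPrimeCore 2 G = ⊥)
    (hconj : ∀ x y : G, x ≠ 1 → x ^ 2 = 1 → y ≠ 1 → y ^ 2 = 1 → IsConj x y)
    (h2 : ∃ x y : G, x ≠ y ∧ x ≠ 1 ∧ x ^ 2 = 1 ∧ y ≠ 1 ∧ y ^ 2 = 1) :
    (∀ (g : G) (k : ℕ), g ^ 2 ^ k = 1 → ∀ z : G, z ^ 2 = 1 → z * g = g * z) ∧
      PLengthLE 2 1 G := by
  classical
  obtain ⟨x₁, x₂, hx12, hx1, hx1', hx2, hx2'⟩ := h2
  have hGp := H24.isPSolvable_of_isSolvable Nat.prime_two G hG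
  have hC := H53.centralizer_pCore_le hGp hO
  have hT := H3.pCore_isPGroup 2 G
  have hnorm : ∀ N : Subgroup G, N.Normal → (∃ j ∈ N, j ≠ 1 ∧ j ^ 2 = 1) →
      ∀ y : G, y ^ 2 = 1 → y ∈ N := by
    rintro N hN ⟨j, hj, hj1, hj2⟩ y hy
    by_cases hy1 : y = 1
    · rw [hy1]; exact one_mem N
    obtain ⟨c, rfl⟩ := isConj_iff.1 (hconj j y hj1 hj2 hy1 hy)
    exact hN.conj_mem j hj c
  have h0 : pCore 2 G ≠ ⊥ := fun h => hx1 (by
    rw [← mem_bot, ← h]; refine hC ?_; rw [h]; simp [mem_centralizer_iff])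
  have hΩ : ∀ x : G, x ^ 2 = 1 → x ∈ pCore 2 G ⊓ centralizer (pCore 2 G : Set G) :=
    hnorm _ inferInstance (exists_order_p_of_ne_bot hT.to_inf_left
      (H1.inf_centralizer_ne_bot_of_isPGroup hT hT le_normalizer h0))
  let Z : Subgroup G :=
    { carrier := {x | x ^ 2 = 1}
      one_mem' := one_pow _
      mul_mem' := fun {a b} ha hb => by
        have : Commute a b := (hΩ b hb).2 a (hΩ a ha).1
        change (a * b) ^ 2 = 1
        rw [this.mul_pow, ha, hb, mul_one]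
      inv_mem' := fun {a} ha => by
        change a⁻¹ ^ 2 = 1
        rw [inv_pow, ha, inv_one] }
  have hZ : ∀ x, x ∈ Z ↔ x ^ 2 = 1 := fun _ => Iff.rfl
  haveI : Z.Normal := ⟨fun x hx g => (hZ _).2 (by rw [conj_pow, (hZ x).1 hx]; simp)⟩
  have hS : ∀ (g : G) (k : ℕ), g ^ 2 ^ k = 1 → g ∈ centralizer (Z : Set G) := fun g k hg =>
    mem_centralizer_of_transitive hG hT hZ (fun x hx => (hΩ x hx).1) hnorm hg
  refine ⟨fun g k hg z hz => hS g k hg z hz, ?_⟩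
  rcases pLengthLE_one_or_exists hΩ with h1 | ⟨j, hj1, hjp, hj⟩
  · exact h1
  have hZD := le_centralizer_iff.1 (show Z ≤ _ from hnorm _ inferInstance ⟨j, hj, hj1, hjp⟩)
  by_contra hne
  set π := QuotientGroup.mk' (pCore 2 G) with hπ
  set H := pPrimeCore 2 (G ⧸ pCore 2 G) with hH
  have hHc : (Nat.card H).Coprime 2 := H3.pPrimeCore_coprime 2 _
  have hπ2 : Function.Surjective ((QuotientGroup.mk' H).comp π) :=
    (QuotientGroup.mk'_surjective _).comp (QuotientGroup.mk'_surjective _)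
  obtain ⟨P, hP, hPπ, -, hN⟩ := exists_frattini_cover hπ2 _ (H3.pCore_isPGroup 2 _)
  have hPne : ¬ P.map π ≤ centralizer (H : Set (G ⧸ pCore 2 G)) := fun h => by
    have h3 := h.trans (H53.centralizer_pPrimeCore_le (H53.isPSolvable_quotient hGp _)
      (H3.pCore_quotient_pCore 2 G))
    have h4 : pCore 2 ((G ⧸ pCore 2 G) ⧸ H) = ⊥ := by
      rw [← hPπ, ← map_map, Subgroup.map_eq_bot_iff, QuotientGroup.ker_mk']; exact h3
    have h5 := H53.centralizer_pCore_le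
      (H53.isPSolvable_quotient (H53.isPSolvable_quotient hGp _) H)
      (H3.pPrimeCore_quotient_pPrimeCore 2 _)
    refine hne (pLengthLE_one_of_quotient_coprime (H3.pPrimeCore_eq_top_iff.1
      (eq_top_iff.2 fun a _ => (QuotientGroup.eq_one_iff a).1 ?_)))
    rw [← mem_bot, ← h4]; refine h5 ?_; rw [h4]; simp [mem_centralizer_iff]
  obtain ⟨K, hKP, hK, hKc⟩ := exists_odd_cover hG hS (normalizer (P : Set G))
  have htr : ∀ z z' : G, z ≠ 1 → z ^ 2 = 1 → z' ≠ 1 → z' ^ 2 = 1 → ∃ k ∈ K, k * z * k⁻¹ = z' := by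
    intro z z' h1 h2 h3 h4
    obtain ⟨g, rfl⟩ := isConj_iff.1 (hconj z z' h1 h2 h3 h4)
    obtain ⟨l, hl, e⟩ : ((QuotientGroup.mk' H).comp π) g ∈ (normalizer (P : Set G)).map _ :=
      hN ▸ mem_top _
    obtain ⟨k, hk, h5⟩ := hKc l hl
    have h6 : l⁻¹ * g ∈ centralizer (Z : Set G) := hZD (by
      rw [mem_comap, map_mul, map_inv]; exact QuotientGroup.eq.1 e)
    have h7 := mul_mem h5 h6 z h2
    refine ⟨k, hk, ?_⟩
    calc k * z * k⁻¹ = k * (z * (k⁻¹ * l * (l⁻¹ * g))) * g⁻¹ := by group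
      _ = _ := by rw [h7]; group
  obtain ⟨U, ⟨hUP, hKU, hUne⟩, hmin⟩ := exists_minimal_of_wellFoundedLT
    (fun U : Subgroup G => U ≤ P ∧ K ≤ normalizer (U : Set G) ∧
      ¬ U.map π ≤ centralizer (H : Set (G ⧸ pCore 2 G))) ⟨P, le_rfl, hKP, hPne⟩
  have hU := hP.to_le hUP
  have hΦ : ((frattini U).map U.subtype).map π ≤ centralizer (H : Set (G ⧸ pCore 2 G)) := by
    by_contra h
    have hlt := H3.map_frattini_lt (K := U) fun h0 => hUne (by rw [h0, Subgroup.map_bot]; exact bot_le)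
    exact hlt.not_ge (hmin ⟨hlt.le.trans hUP,
      hKU.trans (H3.normalizer_le_normalizer_map_frattini U), h⟩ hlt.le)
  obtain ⟨M, hMH, hKM, hcomm, y, hyM, hs, hUy, _, ⟨x, hx, rfl⟩, hxy⟩ := exists_inverted
    (U := U.map π) (K := K.map π) hHc inferInstance (hU.map _)
    (by rw [normalizer_eq_top]; exact le_top) (by rw [normalizer_eq_top]; exact le_top)
    ((map_mono hKU).trans (le_normalizer_map _)) (by
      rintro _ ⟨u, hu, rfl⟩
      exact hΦ ⟨_, H3.pow_mem_map_frattini hU hu, map_pow _ _ _⟩) (by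
      rw [← map_commutator]
      exact (map_mono (H3.commutator_le_map_frattini hU)).trans hΦ) hUne
  have hyy : y ≠ y⁻¹ := fun h => hs.one_lt.ne' (by
    rw [eq_one_of_sq_of_coprime hHc (hMH hyM) h, orderOf_one])
  have hs2 : orderOf y ≠ 2 := fun h => (Nat.Prime.coprime_iff_not_dvd Nat.prime_two).1 hHc.symm
    (h.symm.dvd.trans (Subgroup.orderOf_dvd_natCard H (hMH hyM)))
  set U₀ := U ⊓ (centralizer {y}).comap π with hU₀
  have hmem : ∀ u, u ∈ U₀ ↔ u ∈ U ∧ π u * y * (π u)⁻¹ = y := fun u => by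
    rw [hU₀, mem_inf, mem_comap, mem_centralizer_singleton_iff, mul_inv_eq_iff_eq_mul]
  have hx0 : x ∉ U₀ := fun h => hyy (((hmem x).1 h).2.symm.trans hxy)
  obtain ⟨d, hd, hxd⟩ := exists_mul_mem_centralizer (A := K ⊓ normalizer (U₀ : Set G)) (D := U₀)
    inf_le_right (coprime_of_le_left (H3.coprime_card_of_isPGroup (hU.to_le inf_le_left)
      hK.symm).symm inf_le_left) (Or.inr inferInstance) (x := x) fun a ha => by
      have h1 := conj_mem_of_mem_normalizer (hKU ha.1) hx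
      refine (hmem _).2 ⟨mul_mem (inv_mem hx) h1, ?_⟩
      rcases hUy _ ⟨_, h1, rfl⟩ with h | h
      · exact absurd ((mem_normalizer_iff.1 ha.2 x).2 ((hmem _).2 ⟨h1, h⟩)) hx0
      · rw [map_mul, map_inv]
        calc (π x)⁻¹ * π (a * x * a⁻¹) * y * ((π x)⁻¹ * π (a * x * a⁻¹))⁻¹
            = (π x)⁻¹ * (π (a * x * a⁻¹) * y * (π (a * x * a⁻¹))⁻¹) * π x := by group
          _ = y := by rw [h, ← hxy]; group
  obtain ⟨i, hi⟩ := hU ⟨x * d, mul_mem hx hd.1⟩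
  obtain ⟨z₀, hz₀, hz1, hz2⟩ := exists_pow_order_p (x := x * d) (congrArg Subtype.val hi) fun h =>
    hx0 (by rw [eq_inv_of_mul_eq_one_left h]; exact inv_mem hd)
  have hz3 := zpowers_le.2 hxd hz₀
  choose κ hκ hκ' using fun z : {z : Z // z ≠ 1} =>
    htr z₀ z.1 hz1 hz2 (fun h => z.2 (Subtype.ext h)) z.1.2
  set Y : {z : Z // z ≠ 1} → G ⧸ pCore 2 G := fun z => π (κ z) * y * (π (κ z))⁻¹ with hY
  have hYM : ∀ z, Y z ∈ M := fun z => conj_mem_of_mem_normalizer (hKM ⟨_, hκ z, rfl⟩) hyM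
  have hfix : ∀ z u, π u * Y z * (π u)⁻¹ =
      π (κ z) * (π ((κ z)⁻¹ * u * κ z) * y * (π ((κ z)⁻¹ * u * κ z))⁻¹) * (π (κ z))⁻¹ :=
    fun z u => by simp only [hY, map_mul, map_inv]; group
  have hUY : ∀ u ∈ U.map π, ∀ z, u * Y z * u⁻¹ = Y z ∨ u * Y z * u⁻¹ = (Y z)⁻¹ := by
    rintro _ ⟨u, hu, rfl⟩ z
    rcases hUy _ ⟨_, inv_conj_mem_of_mem_normalizer (hKU (hκ z)) hu, rfl⟩ with h | h
    · exact Or.inl (by rw [hfix, h])
    · exact Or.inr (by rw [hfix, h, hY]; group)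
  have hd : ∀ z z', z ≠ z' → ∃ u ∈ U.map π, (u * Y z * u⁻¹ = Y z ∧ u * Y z' * u⁻¹ = (Y z')⁻¹) ∨
      (u * Y z * u⁻¹ = (Y z)⁻¹ ∧ u * Y z' * u⁻¹ = Y z') := by
    intro z z' hzz
    by_contra h
    have h1 : (κ z')⁻¹ * κ z ∈ K ⊓ normalizer (U₀ : Set G) := by
      refine mem_inf.2 ⟨mul_mem (inv_mem (hκ z')) (hκ z),
        HH.mem_normalizer_of_conj_mem fun w hw => ?_⟩
      have h2 := conj_mem_of_mem_normalizer (hKU (hκ z)) hw.1
      have h3 : π (κ z * w * (κ z)⁻¹) * Y z * (π (κ z * w * (κ z)⁻¹))⁻¹ = Y z := by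
        rw [hfix, show (κ z)⁻¹ * (κ z * w * (κ z)⁻¹) * κ z = w by group, ((hmem w).1 hw).2]
      rcases hUY _ ⟨_, h2, rfl⟩ z' with h4 | h4
      · rw [hfix, hY, mul_left_inj, mul_right_inj] at h4
        have e : (κ z')⁻¹ * κ z * w * ((κ z')⁻¹ * κ z)⁻¹ =
            (κ z')⁻¹ * (κ z * w * (κ z)⁻¹) * κ z' := by group
        rw [e]
        exact (hmem _).2 ⟨inv_conj_mem_of_mem_normalizer (hKU (hκ z')) h2, h4⟩
      · exact absurd ⟨_, ⟨_, h2, rfl⟩, Or.inl ⟨h3, h4⟩⟩ h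
    have h5 := hz3 _ h1
    refine hzz (Subtype.ext (Subtype.ext ?_))
    rw [← hκ' z, ← hκ' z']
    calc κ z * z₀ * (κ z)⁻¹ = κ z' * ((κ z')⁻¹ * κ z * z₀) * (κ z)⁻¹ := by group
      _ = _ := by rw [h5]; group
  have hYc : ∀ z z', Y z * Y z' = Y z' * Y z := fun z z' => by
    by_cases h : z = z'
    · rw [h]
    obtain ⟨u, hu, ⟨h1, h2⟩ | ⟨h1, h2⟩⟩ := hd z z' h
    · exact hcomm _ (hYM z) _ (hYM z') u hu h1 h2
    · exact (hcomm _ (hYM z') _ (hYM z) u hu h2 h1).symm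
  haveI := Fintype.ofFinite {z : Z // z ≠ 1}
  have hYo : ∀ z, orderOf (Y z) = orderOf y := fun z => by
    exact (MulAut.conj (π (κ z))).orderOf_eq y
  have hcard := (pow_card_le_card_closure hs hs2 _ Y hYc hYo hUY hd Finset.univ).2
  set A' := closure (Y '' (Finset.univ : Finset {z : Z // z ≠ 1})) with hA'
  have hA'H : A' ≤ H := (closure_le _).2 (by rintro _ ⟨z, -, rfl⟩; exact hMH (hYM z))
  haveI hA'c : IsMulCommutative A' := isMulCommutative_closure (by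
    rintro _ ⟨z, -, rfl⟩ _ ⟨z', -, rfl⟩; exact hYc z z')
  have hA's : ∀ a ∈ A', a ^ orderOf y = 1 := fun a ha => by
    induction ha using closure_induction with
    | mem a ha => obtain ⟨z, -, rfl⟩ := ha; rw [← hYo z, pow_orderOf_eq_one]
    | one => exact one_pow _
    | mul a b ha hb h1 h2 =>
      rw [(Commute.mul_pow (H53.comm_of_mem hA'c ha hb) _ :), h1, h2, mul_one]
    | inv a _ h1 => rw [inv_pow, h1, inv_one]
  obtain ⟨A, hAπ, hAc⟩ := exists_coprime_lift (QuotientGroup.mk'_surjective (pCore 2 G))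
    (L := A') (by
      rw [QuotientGroup.ker_mk']
      exact H3.coprime_card_of_isPGroup hT (H3.coprime_card_of_le hA'H hHc).symm)
  have hAo : (Nat.card A).Coprime 2 := hAc ▸ H3.coprime_card_of_le hA'H hHc
  have hinj : ∀ a ∈ A, π a = 1 → a = 1 := fun a ha h => by
    rw [← mem_bot, ← H3.inf_eq_bot_of_isPGroup_of_coprime hT hAo]
    exact ⟨(QuotientGroup.eq_one_iff a).1 h, ha⟩
  have hAA' : ∀ a ∈ A, π a ∈ A' := fun a ha => hAπ ▸ mem_map_of_mem _ ha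
  obtain ⟨D, hDT, hDn, hZD', hDD, hD2, hDf⟩ := exists_exp_four hT hZ hΩ
  have hAZ : A ≤ centralizer (Z : Set G) := fun a ha => hZD (hA'H (hAA' a ha))
  haveI := Fact.mk hs
  obtain ⟨W, hW, -, hWD, hWc⟩ := exists_abelian_card_le hs2 _ D A (hT.to_le hDT) hZD'
    (hDT.trans (le_centralizer_iff.1 fun z hz => (hΩ z hz).2)) hDD
    (le_centralizer_iff_isMulCommutative.1 fun a ha b hb =>
      commutatorElement_eq_one_iff_mul_comm.1 (hinj _
        (commutator_le_self A (commutator_mem_commutator hb ha)) (by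
          rw [map_commutatorElement, commutatorElement_eq_one_iff_mul_comm]
          exact H53.comm_of_mem hA'c (hAA' b hb) (hAA' a ha))))
    (fun a ha => hinj _ (pow_mem ha _) (by rw [map_pow, hA's _ (hAA' a ha)])) (hAc ▸ hcard)
    (by rw [normalizer_eq_top]; exact le_top) hAZ (eq_bot_iff.2 fun a ha => hinj a ha.1
      ((QuotientGroup.eq_one_iff a).2 (hC (hDf a (hAo.coprime_dvd_left
        (orderOf_dvd_natCard A ha.1)) (hAZ ha.1) ha.2))))
  have h8 := Nat.le_of_mul_le_mul_right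
    (hWc.trans (card_le_sq_of_sq_mem hZ fun x hx => hD2 x (hWD hx))) Nat.card_pos
  have h9 : (Finset.univ : Finset {z : Z // z ≠ 1}).card = Nat.card Z - 1 := by
    haveI := Fintype.ofFinite Z
    rw [Finset.card_univ, Fintype.card_subtype_compl, Nat.card_eq_fintype_card]
    simp
  have h10 : 3 ≤ Nat.card Z := by
    haveI := Fintype.ofFinite Z
    rw [Nat.card_eq_fintype_card]
    exact Fintype.two_lt_card_iff.2 ⟨1, ⟨x₁, hx1'⟩, ⟨x₂, hx2'⟩,
      fun h => hx1 (congrArg Subtype.val h).symm, fun h => hx2 (congrArg Subtype.val h).symm,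
      fun h => hx12 (congrArg Subtype.val h)⟩
  rw [h9] at h8
  obtain ⟨m, hm⟩ := Nat.exists_eq_add_of_le h10
  rw [hm, show 3 + m - 1 = m + 2 by omega, pow_add] at h8
  have := Nat.lt_two_pow_self (n := m)
  omega

theorem homocyclic_of_transitive {S : Type*} [CommGroup S] [Finite S] {p : ℕ} [hp : Fact p.Prime]
    (hS : IsPGroup p S) (h : ∀ x y : S, x ≠ 1 → x ^ p = 1 → y ≠ 1 → y ^ p = 1 →
      ∀ k : ℕ, (∃ w, w ^ p ^ k = y) → ∃ w, w ^ p ^ k = x) :
    ∃ m r : ℕ, Nonempty (S ≃* (Fin r → Multiplicative (ZMod (p ^ m)))) := by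
  classical
  obtain ⟨ι, _, n, hn, ⟨e⟩⟩ := CommGroup.equiv_prod_multiplicative_zmod_of_finite S
  have h1 : ∀ i, ∃ k, n i = p ^ (k + 1) := fun i => by
    obtain ⟨k, hk⟩ := hS (e.symm (Pi.mulSingle i (Multiplicative.ofAdd (1 : ZMod (n i)))))
    have h2 := congrFun (congrArg e hk) i
    rw [map_pow, MulEquiv.apply_symm_apply, map_one e, Pi.pow_apply, Pi.mulSingle_eq_same,
      Pi.one_apply, ← ofAdd_nsmul, nsmul_one, ofAdd_eq_one, ZMod.natCast_eq_zero_iff] at h2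
    obtain ⟨j, -, hj⟩ := (Nat.dvd_prime_pow hp.out).1 h2
    cases j with
    | zero => exact absurd (hn i) (by simp [hj])
    | succ j => exact ⟨j, hj⟩
  choose k hk using h1
  have key : ∀ i, (Pi.mulSingle i (Multiplicative.ofAdd ((p ^ k i : ℕ) : ZMod (n i))) :
      ∀ i, Multiplicative (ZMod (n i))) i ≠ 1 ∧
      (Pi.mulSingle i (Multiplicative.ofAdd ((p ^ k i : ℕ) : ZMod (n i))) :
        ∀ i, Multiplicative (ZMod (n i))) ^ p = 1 := fun i => by
    constructor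
    · rw [Pi.mulSingle_eq_same, Ne, ofAdd_eq_one, ZMod.natCast_eq_zero_iff, hk,
        Nat.pow_dvd_pow_iff_le_right hp.out.one_lt]
      omega
    · rw [← Pi.mulSingle_pow, ← ofAdd_nsmul, nsmul_eq_mul, ← Nat.cast_mul, ← pow_succ', ← hk,
        ZMod.natCast_self, ofAdd_zero, Pi.mulSingle_one]
  have h3 : ∀ i j, ¬ k i < k j := fun i j hij => by
    have h4 : ∀ i, e.symm (Pi.mulSingle i (Multiplicative.ofAdd ((p ^ k i : ℕ) : ZMod (n i)))) ≠ 1 :=
      fun i h => (key i).1 (by rw [e.symm.map_eq_one_iff.1 h]; rfl)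
    obtain ⟨w, hw⟩ := h _ _ (h4 i) (by rw [← map_pow, (key i).2, map_one]) (h4 j)
      (by rw [← map_pow, (key j).2, map_one]) (k i + 1)
      ⟨e.symm (Pi.mulSingle j (Multiplicative.ofAdd ((p ^ (k j - (k i + 1)) : ℕ) : ZMod (n j)))), by
        rw [← map_pow, ← Pi.mulSingle_pow, ← ofAdd_nsmul, nsmul_eq_mul, ← Nat.cast_mul, ← pow_add,
          Nat.add_sub_cancel' hij]⟩
    have h5 := congrFun (congrArg e hw) i
    rw [map_pow, MulEquiv.apply_symm_apply, Pi.pow_apply, ← hk, ← ofAdd_toAdd (e w i),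
      ← ofAdd_nsmul, nsmul_eq_mul, ZMod.natCast_self, zero_mul, ofAdd_zero] at h5
    exact (key i).1 h5.symm
  obtain ⟨m, hm⟩ : ∃ m, ∀ i, n i = p ^ m := by
    rcases isEmpty_or_nonempty ι with h | ⟨⟨i⟩⟩
    · exact ⟨0, fun i => h.elim i⟩
    · exact ⟨k i + 1, fun j => by
        rw [hk, le_antisymm (not_lt.1 (h3 i j)) (not_lt.1 (h3 j i))]⟩
  obtain rfl : n = fun _ => p ^ m := funext hm
  exact ⟨m, Fintype.card ι, ⟨e.trans (MulEquiv.arrowCongr (Fintype.equivFin ι) (MulEquiv.refl _))⟩⟩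

theorem shaw [Finite G] (hG : Group.IsSolvable G) (S : Sylow 2 G)
    (htwo : ∃ x y : G, x ∈ (S : Subgroup G) ∧ y ∈ (S : Subgroup G) ∧ x ≠ y ∧ x ≠ 1 ∧ x ^ 2 = 1 ∧
      y ≠ 1 ∧ y ^ 2 = 1)
    (hconj : ∀ x y : G, x ≠ 1 → x ^ 2 = 1 → y ≠ 1 → y ^ 2 = 1 → IsConj x y) :
    PLengthLE 2 1 G ∧ ∀ x y : (S : Subgroup G), x ≠ 1 → x ^ 2 = 1 → y ≠ 1 → y ^ 2 = 1 →
      ∃ a ∈ (S : Subgroup G).normalizerMonoidHom.range, a x = y := by
  have hk : (Nat.card (QuotientGroup.mk' (pPrimeCore 2 G)).ker).Coprime 2 := by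
    rw [QuotientGroup.ker_mk']; exact H3.pPrimeCore_coprime 2 G
  have hinj : ∀ a ∈ (S : Subgroup G), QuotientGroup.mk' (pPrimeCore 2 G) a = 1 → a = 1 :=
    fun a ha h => by
      rw [← mem_bot, ← H3.inf_eq_bot_of_isPGroup_of_coprime S.isPGroup' hk]
      exact ⟨ha, h⟩
  obtain ⟨x, y, hx, hy, hxy, hx1, hx2, hy1, hy2⟩ := htwo
  obtain ⟨h1, h2⟩ := shaw_core (G := G ⧸ pPrimeCore 2 G) inferInstance
    (H3.pPrimeCore_quotient_pPrimeCore 2 G) (fun a b ha1 ha2 hb1 hb2 => by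
      obtain ⟨x, hx, rfl⟩ := exists_lift_order_p (QuotientGroup.mk'_surjective _) hk ha2
      obtain ⟨y, hy, rfl⟩ := exists_lift_order_p (QuotientGroup.mk'_surjective _) hk hb2
      exact (QuotientGroup.mk' _).map_isConj (hconj x y (fun h => ha1 (by rw [h, map_one])) hx
        (fun h => hb1 (by rw [h, map_one])) hy))
    ⟨QuotientGroup.mk' _ x, QuotientGroup.mk' _ y, fun h => hxy (inv_mul_eq_one.1
      (hinj _ (mul_mem (inv_mem hx) hy) (by rw [map_mul, map_inv, h, inv_mul_cancel]))),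
      fun h => hx1 (hinj x hx h), by rw [← map_pow, hx2, map_one], fun h => hy1 (hinj y hy h),
      by rw [← map_pow, hy2, map_one]⟩
  refine ⟨pLengthLE_of_coprime_ker (QuotientGroup.mk'_surjective _) hk h2, ?_⟩
  have hc : ∀ z : (S : Subgroup G), z ^ 2 = 1 →
      (z : G) ∈ centralizer ((S : Subgroup G) : Set G) := fun z hz g hg => by
    obtain ⟨k, hk⟩ := S.isPGroup' ⟨g, hg⟩
    refine commutatorElement_eq_one_iff_mul_comm.1 (hinj _
      (commutator_le_self _ (commutator_mem_commutator hg z.2)) ?_)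
    rw [map_commutatorElement, commutatorElement_eq_one_iff_mul_comm]
    exact (h1 _ k (by rw [← map_pow, show g ^ 2 ^ k = 1 from congrArg Subtype.val hk, map_one]) _
      (by rw [← map_pow, show (z : G) ^ 2 = 1 from congrArg Subtype.val hz, map_one])).symm
  intro a b ha1 ha2 hb1 hb2
  obtain ⟨g, hg⟩ := isConj_iff.1 (hconj a b (fun h => ha1 (Subtype.ext h))
    (congrArg Subtype.val ha2) (fun h => hb1 (Subtype.ext h)) (congrArg Subtype.val hb2))
  obtain ⟨n, hn, e⟩ := S.conj_eq_normalizer_conj_of_mem_centralizer a g⁻¹ (hc a ha2)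
    (by rw [inv_inv, hg]; exact hc b hb2)
  refine ⟨_, ⟨⟨n⁻¹, inv_mem hn⟩, rfl⟩, Subtype.ext ?_⟩
  rw [inv_inv, hg] at e
  rw [e]
  change n⁻¹ * a * n⁻¹⁻¹ = _
  rw [inv_inv]

end Cfsg.Agent.H4
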